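import Mathlib
import Cfsg.Agent.H72.PCore

/-!
An elementary abelian 2-subgroup `V` which meets its conjugates trivially and is a maximal abelian
normal subgroup of its normalizer `M`, where `O₂(M)` is self-centralizing in `M`, together with a
conjugate `V'` inside `O₂(M)`: then `V` lies in `O₂` of the normalizer of `V'`.
-/

set_option autoImplicit false

open scoped commutatorElement

namespace Cfsg.Agent.H76.TISpread

variable {G : Type*} [Group G]

/-- A conjugate subgroup. -/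
def cj (V : Subgroup G) (x : G) : Subgroup G := V.map (MulAut.conj x).toMonoidHom

theorem mem_cj {V : Subgroup G} {x y : G} : y ∈ cj V x ↔ x⁻¹ * y * x ∈ V := by
  constructor
  · rintro ⟨v, hv, rfl⟩
    simpa [mul_assoc] using hv
  · intro h
    exact ⟨_, h, by simp [mul_assoc]⟩

theorem conj_mem_cj {V : Subgroup G} (x : G) {v : G} (hv : v ∈ V) : x * v * x⁻¹ ∈ cj V x :=
  ⟨v, hv, rfl⟩

theorem cj_cj (V : Subgroup G) (x y : G) : cj (cj V y) x = cj V (x * y) := by
  ext z; simp [mem_cj, mul_assoc]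

theorem cj_one (V : Subgroup G) : cj V 1 = V := by
  ext z; simp [mem_cj]

theorem cj_inv_cancel (V : Subgroup G) (x : G) : cj (cj V x) x⁻¹ = V := by
  rw [cj_cj, inv_mul_cancel, cj_one]

theorem cj_eq_self_iff [Finite G] {V : Subgroup G} {x : G} :
    cj V x = V ↔ x ∈ Subgroup.normalizer (V : Set G) := by
  constructor
  · intro h
    rw [Subgroup.mem_normalizer_iff]
    intro v
    refine ⟨fun hv => h ▸ conj_mem_cj x hv, fun hv => ?_⟩
    have h' : x * v * x⁻¹ ∈ cj V x := h.symm ▸ hv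
    simpa [mem_cj, mul_assoc] using h'
  · intro h
    ext v
    rw [mem_cj]
    have := (Subgroup.mem_normalizer_iff.1 h) (x⁻¹ * v * x)
    simpa [mul_assoc] using this

theorem card_cj (V : Subgroup G) (x : G) : Nat.card (cj V x) = Nat.card V :=
  Nat.card_congr (V.equivMapOfInjective _ (MulAut.conj x).injective).toEquiv.symm

theorem cj_mono {V W : Subgroup G} (h : V ≤ W) (x : G) : cj V x ≤ cj W x := Subgroup.map_mono h

/-- `O₂` of the normalizer. -/
def nQ (V : Subgroup G) : Subgroup G := pCoreOf 2 (Subgroup.normalizer (V : Set G))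

/-- The centralizer of `V` in `O₂` of its normalizer. -/
def nP (V : Subgroup G) : Subgroup G := nQ V ⊓ Subgroup.centralizer (V : Set G)

theorem mem_nP {V : Subgroup G} {p : G} : p ∈ nP V ↔ p ∈ nQ V ∧ ∀ v ∈ V, v * p = p * v :=
  and_congr Iff.rfl Subgroup.mem_centralizer_iff

theorem normalizer_cj (V : Subgroup G) (x : G) :
    Subgroup.normalizer ((cj V x : Subgroup G) : Set G) =
      (Subgroup.normalizer (V : Set G)).map (MulAut.conj x).toMonoidHom :=
  (Subgroup.map_equiv_normalizer_eq V (MulAut.conj x)).symm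

theorem nQ_cj (V : Subgroup G) (x : G) : nQ (cj V x) = cj (nQ V) x := by
  rw [nQ, normalizer_cj, H72.pCoreOf_map_equiv]; rfl

theorem centralizer_cj (V : Subgroup G) (x : G) :
    Subgroup.centralizer ((cj V x : Subgroup G) : Set G) = cj (Subgroup.centralizer (V : Set G)) x := by
  ext z
  rw [Subgroup.mem_centralizer_iff, mem_cj, Subgroup.mem_centralizer_iff]
  constructor
  · intro h v hv
    have := h _ (conj_mem_cj x hv)
    calc v * (x⁻¹ * z * x) = x⁻¹ * ((x * v * x⁻¹) * z) * x := by group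
      _ = x⁻¹ * (z * (x * v * x⁻¹)) * x := by rw [this]
      _ = x⁻¹ * z * x * v := by group
  · rintro h _ ⟨v, hv, rfl⟩
    show x * v * x⁻¹ * z = z * (x * v * x⁻¹)
    calc x * v * x⁻¹ * z = x * (v * (x⁻¹ * z * x)) * x⁻¹ := by group
      _ = x * (x⁻¹ * z * x * v) * x⁻¹ := by rw [h v hv]
      _ = z * (x * v * x⁻¹) := by group

theorem nP_cj (V : Subgroup G) (x : G) : nP (cj V x) = cj (nP V) x := by
  rw [nP, nQ_cj, centralizer_cj]
  exact (Subgroup.map_inf _ _ _ (MulAut.conj x).injective).symm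

theorem nQ_le (V : Subgroup G) : nQ V ≤ Subgroup.normalizer (V : Set G) := H72.pCoreOf_le 2 _

theorem conj_nQ {V : Subgroup G} {m x : G} (hm : m ∈ Subgroup.normalizer (V : Set G))
    (hx : x ∈ nQ V) : m * x * m⁻¹ ∈ nQ V :=
  (Subgroup.mem_normalizer_iff.1 (H72.le_normalizer_pCoreOf 2 _ hm) x).1 hx

theorem conj_nP {V : Subgroup G} {m x : G} (hm : m ∈ Subgroup.normalizer (V : Set G))
    (hx : x ∈ nP V) : m * x * m⁻¹ ∈ nP V := by
  obtain ⟨h1, h2⟩ := mem_nP.1 hx
  refine mem_nP.2 ⟨conj_nQ hm h1, fun v hv => ?_⟩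
  have hv' : m⁻¹ * v * m ∈ V := by
    have := (Subgroup.mem_normalizer_iff.1 (inv_mem hm) v).1 hv
    rwa [inv_inv] at this
  calc v * (m * x * m⁻¹) = m * ((m⁻¹ * v * m) * x) * m⁻¹ := by group
    _ = m * (x * (m⁻¹ * v * m)) * m⁻¹ := by rw [h2 _ hv']
    _ = m * x * m⁻¹ * v := by group

/-- A centralizing element normalizes. -/
theorem mem_normalizer_of_commute {V : Subgroup G} {x : G} (h : ∀ v ∈ V, v * x = x * v) :
    x ∈ Subgroup.normalizer (V : Set G) :=
  (Subgroup.centralizer_le_normalizer (V : Set G)) (Subgroup.mem_centralizer_iff.2 h)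

/-- The hypotheses on `V`. -/
structure Setting (V : Subgroup G) : Prop where
  elem : ∀ v ∈ V, v * v = 1
  ti : ∀ x y : G, ∀ w : G, w ≠ 1 → w ∈ cj V x → w ∈ cj V y → cj V x = cj V y
  selfCent : ∀ m ∈ Subgroup.normalizer (V : Set G), (∀ x ∈ nQ V, m * x = x * m) → m ∈ nQ V
  maxab : ∀ A : Subgroup G, V ≤ A → A ≤ Subgroup.normalizer (V : Set G) →
    (∀ a ∈ A, ∀ b ∈ A, a * b = b * a) →
    (∀ m ∈ Subgroup.normalizer (V : Set G), ∀ a ∈ A, m * a * m⁻¹ ∈ A) → A = V

namespace Setting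

variable {V : Subgroup G} (S : Setting V)
include S

theorem inv_eq {v : G} (hv : v ∈ V) : v⁻¹ = v := inv_eq_of_mul_eq_one_right (S.elem v hv)

theorem comm {v w : G} (hv : v ∈ V) (hw : w ∈ V) : v * w = w * v := by
  have h := S.inv_eq (mul_mem hv hw)
  rw [mul_inv_rev, S.inv_eq hv, S.inv_eq hw] at h
  exact h.symm

theorem conj (x : G) : Setting (cj V x) where
  elem v hv := by
    obtain ⟨w, hw, rfl⟩ := hv
    show x * w * x⁻¹ * (x * w * x⁻¹) = 1
    rw [show x * w * x⁻¹ * (x * w * x⁻¹) = x * (w * w) * x⁻¹ by group, S.elem w hw]; group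
  ti a b w hw ha hb := by
    rw [cj_cj] at ha hb
    rw [cj_cj, cj_cj]
    exact S.ti _ _ w hw ha hb
  selfCent m hm h := by
    rw [nQ_cj, mem_cj]
    rw [normalizer_cj] at hm
    refine S.selfCent _ (mem_cj.1 hm) fun y hy => ?_
    have := h _ (by rw [nQ_cj]; exact conj_mem_cj x hy)
    calc x⁻¹ * m * x * y = x⁻¹ * (m * (x * y * x⁻¹)) * x := by group
      _ = x⁻¹ * (x * y * x⁻¹ * m) * x := by rw [this]
      _ = y * (x⁻¹ * m * x) := by group
  maxab A h1 h2 h3 h4 := by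
    have hA : cj A x⁻¹ = V := by
      refine S.maxab _ ?_ ?_ ?_ ?_
      · rw [← cj_inv_cancel V x]; exact cj_mono h1 _
      · intro a ha
        have ha' := h2 (show x * a * x⁻¹ ∈ A by simpa [mem_cj, mul_assoc] using ha)
        rw [normalizer_cj] at ha'
        simpa [mem_cj, mul_assoc] using (mem_cj.1 ha')
      · intro a ha b hb
        rw [mem_cj, inv_inv] at ha hb
        have := h3 _ ha _ hb
        calc a * b = x⁻¹ * ((x * a * x⁻¹) * (x * b * x⁻¹)) * x := by group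
          _ = x⁻¹ * ((x * b * x⁻¹) * (x * a * x⁻¹)) * x := by rw [this]
          _ = b * a := by group
      · intro m hm a ha
        rw [mem_cj, inv_inv] at ha ⊢
        have := h4 (x * m * x⁻¹) (by rw [normalizer_cj]; exact conj_mem_cj x hm) _ ha
        rwa [show x * m * x⁻¹ * (x * a * x⁻¹) * (x * m * x⁻¹)⁻¹ = x * (m * a * m⁻¹) * x⁻¹ by group] at this
    rw [← hA, cj_cj, mul_inv_cancel, cj_one]

theorem isPGroup : IsPGroup 2 V := fun v =>
  ⟨1, Subtype.ext (by rw [pow_one, sq]; exact S.elem v v.2)⟩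

theorem le_nQ : V ≤ nQ V :=
  H72.le_pCoreOf Subgroup.le_normalizer le_rfl S.isPGroup

theorem le_nP : V ≤ nP V := fun v hv => mem_nP.2 ⟨S.le_nQ hv, fun _ hw => S.comm hw hv⟩

theorem nP_le_normalizer : nP V ≤ Subgroup.normalizer (V : Set G) :=
  inf_le_left.trans (nQ_le V)

/-- The centre of `P` is `V`. -/
theorem mem_of_commute {x : G} (hx : x ∈ nP V) (h : ∀ p ∈ nP V, x * p = p * x) : x ∈ V := by
  have hA : nP V ⊓ Subgroup.centralizer (nP V : Set G) = V := by
    refine S.maxab _ (fun v hv => ⟨S.le_nP hv, Subgroup.mem_centralizer_iff.2 fun p hp => ?_⟩)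
      (inf_le_left.trans S.nP_le_normalizer) (fun a ha b hb => ?_) (fun m hm a ha => ⟨conj_nP hm ha.1, ?_⟩)
    · exact ((mem_nP.1 hp).2 v hv).symm
    · exact Subgroup.mem_centralizer_iff.1 hb.2 a ha.1
    · refine Subgroup.mem_centralizer_iff.2 fun p hp => ?_
      have := Subgroup.mem_centralizer_iff.1 ha.2 _ (conj_nP (inv_mem hm) hp)
      rw [inv_inv] at this
      calc p * (m * a * m⁻¹) = m * ((m⁻¹ * p * m) * a) * m⁻¹ := by group
        _ = m * (a * (m⁻¹ * p * m)) * m⁻¹ := by rw [this]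
        _ = m * a * m⁻¹ * p := by group
  exact hA.le ⟨hx, Subgroup.mem_centralizer_iff.2 fun p hp => (h p hp).symm⟩

theorem isPGroup_nP : IsPGroup 2 (nP V) := (H72.pCoreOf_isPGroup 2 _).to_le inf_le_left

theorem central {v p : G} (hv : v ∈ V) (hp : p ∈ nP V) : v * p = p * v := (mem_nP.1 hp).2 v hv

theorem commutator_mul_left {x y z : G} (hx : x ∈ nP V) (h : ⁅y, z⁆ ∈ V) :
    ⁅x * y, z⁆ = ⁅y, z⁆ * ⁅x, z⁆ := by
  rw [commutatorElement_def (x * y)]
  calc x * y * z * (x * y)⁻¹ * z⁻¹ = x * ⁅y, z⁆ * z * x⁻¹ * z⁻¹ := by rw [commutatorElement_def]; group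
    _ = ⁅y, z⁆ * x * z * x⁻¹ * z⁻¹ := by rw [S.central h hx]
    _ = ⁅y, z⁆ * ⁅x, z⁆ := by rw [commutatorElement_def x]; group

variable [Finite G]

/-- `P` has class at most two. -/
theorem commutator_mem {a b : G} (ha : a ∈ nP V) (hb : b ∈ nP V) : ⁅a, b⁆ ∈ V := by
  classical
  haveI : Fact (Nat.Prime 2) := ⟨Nat.prime_two⟩
  haveI : Group.IsNilpotent (nP V) := S.isPGroup_nP.isNilpotent
  -- the elements of `P` centralizing `P` modulo `V`
  let R : Set G := {r | r ∈ nP V ∧ ∀ p ∈ nP V, ⁅r, p⁆ ∈ V}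
  have hRc : ∀ r ∈ R, r * ⁅a, b⁆ = ⁅a, b⁆ * r := by
    rintro r ⟨hr, hrp⟩
    have ea : r * a * r⁻¹ = ⁅r, a⁆ * a := by rw [commutatorElement_def]; group
    have eb : r * b * r⁻¹ = ⁅r, b⁆ * b := by rw [commutatorElement_def]; group
    have h1 := hrp a ha
    have h2 := hrp b hb
    have key : r * ⁅a, b⁆ * r⁻¹ = ⁅a, b⁆ := by
      have : r * ⁅a, b⁆ * r⁻¹ = ⁅r * a * r⁻¹, r * b * r⁻¹⁆ := by simp only [commutatorElement_def]; group
      rw [this, ea, eb, commutatorElement_def]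
      generalize ⁅r, a⁆ = u at h1 ⊢
      generalize ⁅r, b⁆ = v at h2 ⊢
      have c1 : Commute u v := S.comm h1 h2
      have c2 : Commute u a := S.central h1 ha
      have c3 : Commute u b := S.central h1 hb
      have c4 : Commute v a := S.central h2 ha
      calc u * a * (v * b) * (u * a)⁻¹ * (v * b)⁻¹
          = u * (a * v) * b * a⁻¹ * u⁻¹ * b⁻¹ * v⁻¹ := by group
        _ = u * (v * a) * b * a⁻¹ * u⁻¹ * b⁻¹ * v⁻¹ := by rw [c4.eq]
        _ = (u * v) * (a * b * a⁻¹) * (u⁻¹ * b⁻¹) * v⁻¹ := by group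
        _ = (v * u) * (a * b * a⁻¹) * (b⁻¹ * u⁻¹) * v⁻¹ := by rw [c1.eq, c3.inv_inv.eq]
        _ = v * (u * ⁅a, b⁆) * u⁻¹ * v⁻¹ := by rw [commutatorElement_def]; group
        _ = v * (⁅a, b⁆ * u) * u⁻¹ * v⁻¹ := by
            have : Commute u ⁅a, b⁆ := by
              rw [commutatorElement_def]
              exact ((c2.mul_right c3).mul_right c2.inv_right).mul_right c3.inv_right
            rw [this.eq]
        _ = (v * ⁅a, b⁆) * v⁻¹ := by group
        _ = (⁅a, b⁆ * v) * v⁻¹ := by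
            have c5 : Commute v b := S.central h2 hb
            have : Commute v ⁅a, b⁆ := by
              rw [commutatorElement_def]
              exact ((c4.mul_right c5).mul_right c4.inv_right).mul_right c5.inv_right
            rw [this.eq]
        _ = ⁅a, b⁆ := by group
        _ = a * b * a⁻¹ * b⁻¹ := commutatorElement_def a b
    calc r * ⁅a, b⁆ = r * ⁅a, b⁆ * r⁻¹ * r := by group
      _ = ⁅a, b⁆ * r := by rw [key]
  -- the centralizer of `R` in `P` is `V`
  let Y : Subgroup G := nP V ⊓ Subgroup.centralizer R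
  have hRconj : ∀ m ∈ Subgroup.normalizer (V : Set G), ∀ r ∈ R, m * r * m⁻¹ ∈ R := by
    rintro m hm r ⟨hr, hrp⟩
    refine ⟨conj_nP hm hr, fun p hp => ?_⟩
    have h1 := hrp _ (conj_nP (inv_mem hm) hp)
    rw [inv_inv] at h1
    rw [show ⁅m * r * m⁻¹, p⁆ = m * ⁅r, m⁻¹ * p * m⁆ * m⁻¹ by simp only [commutatorElement_def]; group]
    exact (Subgroup.mem_normalizer_iff.1 hm _).1 h1
  have hYconj : ∀ m ∈ Subgroup.normalizer (V : Set G), ∀ y ∈ Y, m * y * m⁻¹ ∈ Y := by
    rintro m hm y ⟨hy, hyc⟩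
    refine ⟨conj_nP hm hy, Subgroup.mem_centralizer_iff.2 fun r hr => ?_⟩
    have h1 := Subgroup.mem_centralizer_iff.1 hyc _ (hRconj _ (inv_mem hm) r hr)
    rw [inv_inv] at h1
    calc r * (m * y * m⁻¹) = m * ((m⁻¹ * r * m) * y) * m⁻¹ := by group
      _ = m * (y * (m⁻¹ * r * m)) * m⁻¹ := by rw [h1]
      _ = m * y * m⁻¹ * r := by group
  have hYn : ∀ k, ∀ y : nP V, y ∈ Subgroup.upperCentralSeries (nP V) k → (y : G) ∈ Y → (y : G) ∈ V := by
    intro k
    induction k with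
    | zero =>
      intro y hy _
      rw [Subgroup.upperCentralSeries_zero, Subgroup.mem_bot] at hy
      rw [hy]; exact one_mem V
    | succ k ih =>
      intro y hy hyY
      have hyR : (y : G) ∈ R := by
        refine ⟨y.2, fun p hp => ?_⟩
        have h1 := (Subgroup.mem_upperCentralSeries_succ_iff).1 hy ⟨p, hp⟩
        refine ih _ h1 ?_
        have h2 := hYconj p (S.nP_le_normalizer hp) _ (inv_mem hyY)
        have h3 := Y.mul_mem hyY h2
        simpa [commutatorElement_def, mul_assoc] using h3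
      refine S.mem_of_commute y.2 fun p hp => ?_
      -- `y` lies in the abelian subgroup `R ∩ C(R)`
      have hA : Subgroup.closure {z : G | z ∈ R ∧ z ∈ Y} ⊔ V = V := by
        refine S.maxab _ le_sup_right (sup_le ((Subgroup.closure_le _).2 fun z hz => S.nP_le_normalizer hz.1.1)
          Subgroup.le_normalizer) ?_ ?_
        · have hle : Subgroup.closure {z : G | z ∈ R ∧ z ∈ Y} ⊔ V ≤
              Subgroup.closure ({z : G | z ∈ R ∧ z ∈ Y} ∪ (V : Set G)) :=
            sup_le (Subgroup.closure_mono Set.subset_union_left)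
              fun v hv => Subgroup.subset_closure (Or.inr hv)
          intro c hc d hd
          have hcomm := Subgroup.isMulCommutative_closure
            (k := ({z : G | z ∈ R ∧ z ∈ Y} ∪ (V : Set G))) (by
              rintro s (hs | hs) t (ht | ht)
              · exact Subgroup.mem_centralizer_iff.1 ht.2.2 s hs.1
              · exact (S.central ht hs.1.1).symm
              · exact S.central hs ht.1.1
              · exact S.comm hs ht)
          exact congrArg Subtype.val (hcomm.is_comm.comm ⟨c, hle hc⟩ ⟨d, hle hd⟩)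
        · intro m hm z hz
          have : (Subgroup.closure {z : G | z ∈ R ∧ z ∈ Y} ⊔ V).map (MulAut.conj m).toMonoidHom ≤
              Subgroup.closure {z : G | z ∈ R ∧ z ∈ Y} ⊔ V := by
            rw [Subgroup.map_sup, MonoidHom.map_closure]
            refine sup_le_sup ((Subgroup.closure_le _).2 ?_) (cj_eq_self_iff.2 hm).le
            rintro _ ⟨w, hw, rfl⟩
            exact Subgroup.subset_closure ⟨hRconj m hm w hw.1, hYconj m hm w hw.2⟩
          exact this ⟨z, hz, rfl⟩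
      have hyV : (y : G) ∈ V := hA.le (Subgroup.mem_sup_left (Subgroup.subset_closure ⟨hyR, hyY⟩))
      exact S.central hyV hp
  obtain ⟨k, hk⟩ := (inferInstance : Group.IsNilpotent (nP V)).nilpotent'
  have hab : ⁅a, b⁆ ∈ nP V := by
    rw [commutatorElement_def]
    exact mul_mem (mul_mem (mul_mem ha hb) (inv_mem ha)) (inv_mem hb)
  exact hYn k ⟨_, hab⟩ (hk ▸ Subgroup.mem_top _) ⟨hab, Subgroup.mem_centralizer_iff.2 hRc⟩

theorem commutator_comm {a b : G} (ha : a ∈ nP V) (hb : b ∈ nP V) : ⁅a, b⁆ = ⁅b, a⁆ := by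
  rw [← commutatorElement_inv b a, S.inv_eq (S.commutator_mem hb ha)]

theorem sq_mem {p : G} (hp : p ∈ nP V) : p * p ∈ V := by
  refine S.mem_of_commute (mul_mem hp hp) fun r hr => ?_
  have h := S.commutator_mem hp hr
  refine commutatorElement_eq_one_iff_mul_comm.1 ?_
  rw [S.commutator_mul_left hp h]
  exact S.elem _ h

/-- An element of `N(V)` stabilising the series `1 < V < P < Q` lies in `Q`. -/
theorem mem_nQ_of_chain {k : G} (hk : k ∈ Subgroup.normalizer (V : Set G))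
    (hV : ∀ v ∈ V, v * k = k * v) (hP : ∀ p ∈ nP V, k * p * k⁻¹ * p⁻¹ ∈ V) : k ∈ nQ V := by
  classical
  let K : Subgroup G :=
    { carrier := {k | k ∈ Subgroup.normalizer (V : Set G) ∧ (∀ v ∈ V, v * k = k * v) ∧
        ∀ p ∈ nP V, k * p * k⁻¹ * p⁻¹ ∈ V}
      one_mem' := ⟨one_mem _, fun v _ => by simp, fun p _ => by simp⟩
      mul_mem' := by
        rintro x y ⟨hxN, hxV, hxP⟩ ⟨hyN, hyV, hyP⟩
        refine ⟨mul_mem hxN hyN, fun v hv => ?_, fun p hp => ?_⟩
        · rw [← mul_assoc, hxV v hv, mul_assoc, hyV v hv, mul_assoc]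
        · have h1 := hyP p hp
          have h2 := hxP p hp
          have e : x * y * p * (x * y)⁻¹ * p⁻¹ =
              (x * (y * p * y⁻¹ * p⁻¹) * x⁻¹) * (x * p * x⁻¹ * p⁻¹) := by group
          rw [e, ← hxV _ h1, mul_inv_cancel_right]
          exact mul_mem h1 h2
      inv_mem' := by
        rintro x ⟨hxN, hxV, hxP⟩
        refine ⟨inv_mem hxN, fun v hv => ((Commute.inv_right (hxV v hv : Commute v x))).eq, fun p hp => ?_⟩
        have hp' := conj_nP (inv_mem hxN) hp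
        rw [inv_inv] at hp' ⊢
        have h1 := inv_mem (hxP _ hp')
        rwa [show (x * (x⁻¹ * p * x) * x⁻¹ * (x⁻¹ * p * x)⁻¹)⁻¹ = x⁻¹ * p * x * p⁻¹ by group] at h1 }
  have hKN : Subgroup.normalizer (V : Set G) ≤ Subgroup.normalizer (K : Set G) := by
    have key : ∀ m ∈ Subgroup.normalizer (V : Set G), ∀ x ∈ K, m * x * m⁻¹ ∈ K := by
      rintro m hm x ⟨hxN, hxV, hxP⟩
      refine ⟨mul_mem (mul_mem hm hxN) (inv_mem hm), fun v hv => ?_, fun p hp => ?_⟩
      · have hv' : m⁻¹ * v * m ∈ V := by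
          have := (Subgroup.mem_normalizer_iff.1 (inv_mem hm) v).1 hv
          rwa [inv_inv] at this
        calc v * (m * x * m⁻¹) = m * ((m⁻¹ * v * m) * x) * m⁻¹ := by group
          _ = m * (x * (m⁻¹ * v * m)) * m⁻¹ := by rw [hxV _ hv']
          _ = m * x * m⁻¹ * v := by group
      · have hp' := conj_nP (inv_mem hm) hp
        rw [inv_inv] at hp'
        have h1 := (Subgroup.mem_normalizer_iff.1 hm _).1 (hxP _ hp')
        rwa [show m * (x * (m⁻¹ * p * m) * x⁻¹ * (m⁻¹ * p * m)⁻¹) * m⁻¹ =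
          m * x * m⁻¹ * p * (m * x * m⁻¹)⁻¹ * p⁻¹ by group] at h1
    intro m hm
    refine Subgroup.mem_normalizer_iff.2 fun x => ⟨key m hm x, fun h => ?_⟩
    have := key m⁻¹ (inv_mem hm) _ h
    simpa [mul_assoc] using this
  have h4 : ∀ x ∈ K, x ^ 4 ∈ nQ V := by
    rintro x ⟨hxN, hxV, hxP⟩
    refine S.selfCent _ (pow_mem hxN 4) fun y hy => ?_
    set s := x * y * x⁻¹ * y⁻¹ with hs
    have hyN := nQ_le V hy
    have hsP : s ∈ nP V := by
      refine mem_nP.2 ⟨mul_mem (conj_nQ hxN hy) (inv_mem hy), fun v hv => ?_⟩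
      have hv' : y⁻¹ * v * y ∈ V := by
        have := (Subgroup.mem_normalizer_iff.1 (inv_mem hyN) v).1 hv
        rwa [inv_inv] at this
      have h1 : x * (y⁻¹ * v * y) = (y⁻¹ * v * y) * x := (hxV _ hv').symm
      have h2 : x * v = v * x := (hxV v hv).symm
      have e1 : s⁻¹ * v * s = v := by
        calc s⁻¹ * v * s = y * x * y⁻¹ * (x⁻¹ * v * x) * y * x⁻¹ * y⁻¹ := by rw [hs]; group
          _ = y * x * y⁻¹ * v * y * x⁻¹ * y⁻¹ := by
              rw [mul_assoc x⁻¹ v x, ← h2, inv_mul_cancel_left]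
          _ = y * (x * (y⁻¹ * v * y)) * x⁻¹ * y⁻¹ := by group
          _ = y * ((y⁻¹ * v * y) * x) * x⁻¹ * y⁻¹ := by rw [h1]
          _ = v := by group
      calc v * s = s * (s⁻¹ * v * s) := by group
        _ = s * v := by rw [e1]
    set c := x * s * x⁻¹ * s⁻¹ with hc
    have hcV : c ∈ V := hxP s hsP
    have hcy : c * (s * s) ∈ V := mul_mem hcV (S.sq_mem hsP)
    set d := c * (s * s) with hd
    have e2 : x * x * y * (x * x)⁻¹ = d * y := by rw [hd, hc, hs]; group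
    have hxd : x * x * d = d * (x * x) :=
      (Commute.mul_right (hxV d hcy) (hxV d hcy)).eq.symm
    rw [show x ^ 4 = (x * x) * (x * x) by simp only [pow_succ, pow_zero, one_mul, mul_assoc]]
    calc x * x * (x * x) * y = (x * x) * ((x * x) * y * (x * x)⁻¹) * (x * x) := by group
      _ = (x * x) * (d * y) * (x * x) := by rw [e2]
      _ = (x * x * d) * y * (x * x) := by group
      _ = d * ((x * x) * y * (x * x)⁻¹) * ((x * x) * (x * x)) := by rw [hxd]; simp only [mul_assoc, mul_inv_rev, inv_mul_cancel_left]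
      _ = (d * d) * y * ((x * x) * (x * x)) := by rw [e2]; group
      _ = y * (x * x * (x * x)) := by rw [S.elem d hcy, one_mul]
  have hK2 : IsPGroup 2 K := fun x => by
    obtain ⟨j, hj⟩ := H72.pCoreOf_isPGroup 2 _ ⟨_, h4 x x.2⟩
    refine ⟨j + 2, Subtype.ext ?_⟩
    have := congrArg Subtype.val hj
    simp only [SubgroupClass.coe_pow, OneMemClass.coe_one] at this ⊢
    rw [← pow_mul] at this
    rwa [pow_add, mul_comm (2 ^ j), show (2 : ℕ) ^ 2 = 4 by norm_num]
  exact H72.le_pCoreOf (fun x hx => (hx : _ ∧ _ ∧ _).1) hKN hK2 (show k ∈ K from ⟨hk, hV, hP⟩)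

/-- Two distinct conjugates one of which normalizes the other commute. -/
theorem commute_of_le_normalizer (x y : G) (hne : cj V x ≠ cj V y)
    (hle : cj V y ≤ Subgroup.normalizer ((cj V x : Subgroup G) : Set G)) :
    ∀ a ∈ cj V x, ∀ b ∈ cj V y, a * b = b * a := by
  classical
  set A := cj V x
  set B := cj V y
  have SA := S.conj x
  have SB := S.conj y
  have hdisj : ∀ w ∈ A, w ∈ B → w = 1 := fun w hA hB => by
    by_contra hw
    exact hne (S.ti x y w hw hA hB)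
  let A0 : Subgroup G := A ⊓ Subgroup.centralizer (B : Set G)
  suffices h : A ≤ A0 from fun a ha b hb => (Subgroup.mem_centralizer_iff.1 (h ha).2 b hb).symm
  by_contra hA0
  obtain ⟨z, hzA, hz⟩ := SetLike.not_le_iff_exists.1 hA0
  have hnorm : ∀ a ∈ A, ∀ b ∈ B, b ≠ 1 → a * b = b * a → a ∈ A0 := by
    intro a ha b hb hb1 hab
    refine ⟨ha, Subgroup.mem_centralizer_iff.2 fun b' hb' => ?_⟩
    have haN : cj B a = B := by
      rw [cj_cj]
      exact S.ti _ y b hb1 (by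
        rw [← cj_cj, mem_cj, show a⁻¹ * b * a = b by rw [mul_assoc, ← hab, inv_mul_cancel_left]]
        exact hb) hb
    have h1 : a * b' * a⁻¹ * b'⁻¹ ∈ A := by
      have h2 := (Subgroup.mem_normalizer_iff.1 (hle hb') a⁻¹).1 (inv_mem ha)
      rw [show a * b' * a⁻¹ * b'⁻¹ = a * (b' * a⁻¹ * b'⁻¹) by group]
      exact mul_mem ha h2
    have h2 : a * b' * a⁻¹ * b'⁻¹ ∈ B :=
      mul_mem ((Subgroup.mem_normalizer_iff.1 (cj_eq_self_iff.1 haN) b').1 hb') (inv_mem hb')
    have h3 := hdisj _ h1 h2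
    rw [mul_inv_eq_one, mul_inv_eq_iff_eq_mul] at h3
    exact h3.symm
  have hzb : ∀ b ∈ B, z * b * z⁻¹ * b⁻¹ ∈ A0 := by
    intro b hb
    set c := z * b * z⁻¹ * b⁻¹ with hc
    have hcA : c ∈ A := by
      rw [hc, show z * b * z⁻¹ * b⁻¹ = z * (b * z⁻¹ * b⁻¹) by group]
      exact mul_mem hzA ((Subgroup.mem_normalizer_iff.1 (hle hb) z⁻¹).1 (inv_mem hzA))
    rcases eq_or_ne b 1 with rfl | hb1
    · rw [hc]; simp
    refine hnorm c hcA b hb hb1 ?_
    have e1 : b * c * b⁻¹ = c⁻¹ := by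
      calc b * c * b⁻¹ = b * z * b * z⁻¹ * (b * b)⁻¹ := by rw [hc]; group
        _ = b * z * b⁻¹ * z⁻¹ := by rw [SB.elem b hb, inv_one, mul_one, SB.inv_eq hb]
        _ = c⁻¹ := by rw [hc]; group
    rw [SA.inv_eq hcA] at e1
    exact (mul_inv_eq_iff_eq_mul.1 e1).symm
  let f : B × B → A0 × B := fun p => (⟨_, hzb p.1.1 p.1.2⟩, p.1 * p.2)
  have hf : Function.Injective f := by
    rintro ⟨⟨b, hb⟩, ⟨d, hd⟩⟩ ⟨⟨b', hb'⟩, ⟨d', hd'⟩⟩ h
    have h1 : z * b * z⁻¹ * b⁻¹ = z * b' * z⁻¹ * b'⁻¹ := congrArg (fun q => (q.1 : G)) h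
    have h2 : b * d = b' * d' := congrArg (fun q => (q.2 : G)) h
    have h3 : z * (b'⁻¹ * b) * z⁻¹ = b'⁻¹ * b := by
      calc z * (b'⁻¹ * b) * z⁻¹ = (z * b' * z⁻¹)⁻¹ * (z * b * z⁻¹ * b⁻¹) * b := by group
        _ = (z * b' * z⁻¹)⁻¹ * (z * b' * z⁻¹ * b'⁻¹) * b := by rw [h1]
        _ = b'⁻¹ * b := by group
    by_cases he : b'⁻¹ * b = 1
    · obtain rfl : b' = b := inv_mul_eq_one.1 he
      obtain rfl := mul_left_cancel h2
      rfl
    · exact absurd (hnorm z hzA _ (mul_mem (inv_mem hb') hb) he (mul_inv_eq_iff_eq_mul.1 h3)) hz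
  have hc := Nat.card_le_card_of_injective f hf
  rw [Nat.card_prod, Nat.card_prod] at hc
  have hlt : Nat.card A0 < Nat.card B := by
    rw [card_cj V y, ← card_cj V x]
    refine lt_of_le_of_ne (Subgroup.card_le_of_le inf_le_left) fun e => hz ?_
    rw [show A0 = A from Subgroup.eq_of_le_of_card_ge inf_le_left e.ge]
    exact hzA
  exact absurd hc (not_le.2 (Nat.mul_lt_mul_of_pos_right hlt Nat.card_pos))

end Setting

/-- `V'` is a conjugate of `V` in `O₂(N(V))`, other than `V`. -/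
structure Pair (V V' : Subgroup G) : Prop where
  setting : Setting V
  conj : ∃ g : G, V' = cj V g
  ne : V' ≠ V
  le : V' ≤ nQ V

namespace Pair

variable [Finite G] {V V' : Subgroup G} (h : Pair V V')
include h

theorem setting' : Setting V' := by
  obtain ⟨g, rfl⟩ := h.conj; exact h.setting.conj g

theorem comm {v a : G} (hv : v ∈ V) (ha : a ∈ V') : v * a = a * v := by
  obtain ⟨g, hg⟩ := h.conj
  subst hg
  refine h.setting.commute_of_le_normalizer 1 g (fun e => h.ne (e.symm.trans (cj_one V))) ?_ v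
    (by rw [cj_one]; exact hv) a ha
  rw [cj_one]
  exact h.le.trans (nQ_le V)

theorem le_nP : V' ≤ nP V := fun _ ha => mem_nP.2 ⟨h.le ha, fun _ hv => h.comm hv ha⟩

theorem eq_one {w : G} (hV : w ∈ V) (hV' : w ∈ V') : w = 1 := by
  by_contra hw
  obtain ⟨g, rfl⟩ := h.conj
  exact h.ne ((h.setting.ti g 1 w hw hV' (by rw [cj_one]; exact hV)).trans (cj_one V))

theorem card_eq : Nat.card V' = Nat.card V := by
  obtain ⟨g, rfl⟩ := h.conj; exact card_cj V g

/-- If an element of `P` commutes with a nontrivial element of `V'`, it centralizes `V'`. -/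
theorem centralizes {p a : G} (hp : p ∈ nP V) (ha : a ∈ V') (ha1 : a ≠ 1) (hc : p * a = a * p) :
    ∀ a' ∈ V', a' * p = p * a' := by
  intro a' ha'
  obtain ⟨g, hg⟩ := h.conj
  have hN : cj V' p = V' := by
    rw [hg, cj_cj]
    refine h.setting.ti _ g a ha1 ?_ (hg ▸ ha)
    rw [← cj_cj, ← hg, mem_cj, show p⁻¹ * a * p = a by rw [mul_assoc, ← hc, inv_mul_cancel_left]]
    exact ha
  have h1 := h.setting.commutator_mem hp (h.le_nP ha')
  have h2 : ⁅p, a'⁆ ∈ V' := by
    rw [commutatorElement_def]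
    exact mul_mem ((Subgroup.mem_normalizer_iff.1 (cj_eq_self_iff.1 hN) a').1 ha') (inv_mem ha')
  exact (commutatorElement_eq_one_iff_mul_comm.1 (h.eq_one h1 h2)).symm

/-- A conjugate under `N(V)` again forms a pair with `V`. -/
theorem conj_pair {m : G} (hm : m ∈ Subgroup.normalizer (V : Set G)) : Pair V (cj V' m) := by
  refine ⟨h.setting, ?_, fun e => h.ne ?_, fun x hx => ?_⟩
  · obtain ⟨g, rfl⟩ := h.conj; exact ⟨m * g, cj_cj V m g⟩
  · have := congrArg (fun U => cj U m⁻¹) e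
    simp only [cj_inv_cancel] at this
    rw [this, cj_eq_self_iff]
    exact inv_mem hm
  · obtain ⟨a, ha, rfl⟩ := hx
    exact conj_nQ hm (h.le ha)

/-- There is a conjugate of `V'` under `N(V)` not centralized by any nontrivial element of `V'`. -/
theorem exists_partner : ∃ m ∈ Subgroup.normalizer (V : Set G),
    ∀ a ∈ V', a ≠ 1 → ∀ b ∈ cj V' m, b ≠ 1 → a * b ≠ b * a := by
  classical
  by_contra hcon
  push_neg at hcon
  set Sgen : Set G := {x | ∃ m ∈ Subgroup.normalizer (V : Set G), x ∈ cj V' m}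
  have hall : ∀ m ∈ Subgroup.normalizer (V : Set G), ∀ a ∈ V', ∀ b ∈ cj V' m, a * b = b * a := by
    intro m hm a ha b hb
    obtain ⟨a0, ha0, ha01, b0, hb0, hb01, hab⟩ := hcon m hm
    have hU := h.conj_pair hm
    have h1 := h.centralizes (hU.le_nP hb0) ha0 ha01 hab.symm
    exact (hU.centralizes (h.le_nP ha) hb0 hb01 (h1 a ha) b hb).symm
  have hcomm : ∀ s ∈ Sgen, ∀ t ∈ Sgen, s * t = t * s := by
    rintro s ⟨m, hm, hs⟩ t ⟨m', hm', ht⟩
    rw [mem_cj] at hs
    have ht' : m⁻¹ * t * m ∈ cj V' (m⁻¹ * m') := by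
      rw [mem_cj] at ht ⊢
      simpa [mul_assoc] using ht
    have := hall _ (mul_mem (inv_mem hm) hm') _ hs _ ht'
    calc s * t = m * ((m⁻¹ * s * m) * (m⁻¹ * t * m)) * m⁻¹ := by group
      _ = m * ((m⁻¹ * t * m) * (m⁻¹ * s * m)) * m⁻¹ := by rw [this]
      _ = t * s := by group
  have hSP : ∀ s ∈ Sgen, s ∈ nP V := by
    rintro s ⟨m, hm, hs⟩
    exact (h.conj_pair hm).le_nP hs
  let A : Subgroup G := Subgroup.closure (Sgen ∪ (V : Set G))
  have hA : A = V := by
    refine h.setting.maxab A (fun v hv => Subgroup.subset_closure (Or.inr hv)) ?_ ?_ ?_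
    · refine (Subgroup.closure_le _).2 ?_
      rintro s (hs | hs)
      · exact h.setting.nP_le_normalizer (hSP s hs)
      · exact Subgroup.le_normalizer hs
    · intro c hc d hd
      have hk := Subgroup.isMulCommutative_closure (k := Sgen ∪ (V : Set G)) (by
        rintro s (hs | hs) t (ht | ht)
        · exact hcomm s hs t ht
        · exact (h.setting.central ht (hSP s hs)).symm
        · exact h.setting.central hs (hSP t ht)
        · exact h.setting.comm hs ht)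
      exact congrArg Subtype.val (hk.is_comm.comm ⟨c, hc⟩ ⟨d, hd⟩)
    · intro n hn z hz
      have : A.map (MulAut.conj n).toMonoidHom ≤ A := by
        rw [MonoidHom.map_closure, Subgroup.closure_le]
        rintro _ ⟨w, hw, rfl⟩
        refine Subgroup.subset_closure ?_
        rcases hw with ⟨m, hm, hw⟩ | hw
        · refine Or.inl ⟨n * m, mul_mem hn hm, ?_⟩
          rw [← cj_cj]
          exact conj_mem_cj n hw
        · exact Or.inr ((Subgroup.mem_normalizer_iff.1 hn w).1 hw)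
      exact this ⟨z, hz, rfl⟩
  refine h.ne (Subgroup.eq_of_le_of_card_ge (fun a ha => hA.le (Subgroup.subset_closure (Or.inl
    ⟨1, one_mem _, by rw [cj_one]; exact ha⟩))) h.card_eq.ge)

/-- Every element of `V` is a commutator with a given nontrivial element of `V'`. -/
theorem exists_commutator {m : G} (hm : m ∈ Subgroup.normalizer (V : Set G))
    (hU : ∀ a ∈ V', a ≠ 1 → ∀ b ∈ cj V' m, b ≠ 1 → a * b ≠ b * a) :
    (∀ a ∈ V', a ≠ 1 → ∀ v ∈ V, ∃ b ∈ cj V' m, ⁅b, a⁆ = v) ∧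
      (∀ b ∈ cj V' m, b ≠ 1 → ∀ v ∈ V, ∃ a ∈ V', ⁅b, a⁆ = v) := by
  classical
  have hUP := (h.conj_pair hm).le_nP
  have S := h.setting
  have hcU : Nat.card (cj V' m : Subgroup G) = Nat.card V := (card_cj V' m).trans h.card_eq
  constructor
  · intro a ha ha1 v hv
    let f : ↥(cj V' m) → V := fun b => ⟨⁅(b : G), a⁆, S.commutator_mem (hUP b.2) (h.le_nP ha)⟩
    have hinj : Function.Injective f := by
      rintro ⟨b, hb⟩ ⟨b', hb'⟩ he
      have he' : ⁅b, a⁆ = ⁅b', a⁆ := congrArg Subtype.val he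
      by_contra hne
      have hne' : b'⁻¹ * b ≠ 1 := fun e => hne (Subtype.ext (inv_mul_eq_one.1 e).symm)
      refine hU a ha ha1 _ (mul_mem (inv_mem hb') hb) hne' ?_
      refine (commutatorElement_eq_one_iff_mul_comm.1 ?_).symm
      have hcomm' := S.commutator_mem (hUP (mul_mem (inv_mem hb') hb)) (h.le_nP ha)
      have h1 := S.commutator_mul_left (y := b'⁻¹ * b) (z := a) (hUP hb') hcomm'
      rw [mul_inv_cancel_left, he'] at h1
      exact right_eq_mul.1 h1 |>.symm ▸ rfl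
    obtain ⟨b, hb⟩ := (hinj.bijective_of_nat_card_le hcU.ge).2 ⟨v, hv⟩
    exact ⟨b, b.2, congrArg Subtype.val hb⟩
  · intro b hb hb1 v hv
    let f : V' → V := fun a => ⟨⁅(a : G), b⁆, S.commutator_mem (h.le_nP a.2) (hUP hb)⟩
    have hinj : Function.Injective f := by
      rintro ⟨a, ha⟩ ⟨a', ha'⟩ he
      have he' : ⁅a, b⁆ = ⁅a', b⁆ := congrArg Subtype.val he
      by_contra hne
      have hne' : a'⁻¹ * a ≠ 1 := fun e => hne (Subtype.ext (inv_mul_eq_one.1 e).symm)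
      refine hU _ (mul_mem (inv_mem ha') ha) hne' b hb hb1 ?_
      refine commutatorElement_eq_one_iff_mul_comm.1 ?_
      have hcomm' := S.commutator_mem (h.le_nP (mul_mem (inv_mem ha') ha)) (hUP hb)
      have h1 := S.commutator_mul_left (y := a'⁻¹ * a) (z := b) (h.le_nP ha') hcomm'
      rw [mul_inv_cancel_left, he'] at h1
      exact right_eq_mul.1 h1 |>.symm ▸ rfl
    obtain ⟨a, ha⟩ := (hinj.bijective_of_nat_card_le h.card_eq.ge).2 ⟨v, hv⟩
    exact ⟨a, a.2, (S.commutator_comm (hUP hb) (h.le_nP a.2)).trans (congrArg Subtype.val ha)⟩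

/-- Translations of a nontrivial element of `V'` by `V`. -/
theorem exists_conj {a v : G} (ha : a ∈ V') (ha1 : a ≠ 1) (hv : v ∈ V) :
    ∃ p ∈ nP V, p * a * p⁻¹ = v * a := by
  obtain ⟨m, hm, hU⟩ := h.exists_partner
  obtain ⟨b, hb, he⟩ := (h.exists_commutator hm hU).1 a ha ha1 v hv
  refine ⟨b, (h.conj_pair hm).le_nP hb, ?_⟩
  rw [← he, commutatorElement_def]; group

theorem mem_sup {w : G} : w ∈ V ⊔ V' ↔ ∃ v ∈ V, ∃ a ∈ V', w = v * a := by
  constructor
  · intro hw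
    have hn : V' ≤ Subgroup.normalizer (V : Set G) := fun a ha =>
      mem_normalizer_of_commute fun v hv => h.comm hv ha
    have h' : w ∈ ((V ⊔ V' : Subgroup G) : Set G) := hw
    rw [Subgroup.coe_mul_of_right_le_normalizer_left V V' hn] at h'
    obtain ⟨v, hv, a, ha, rfl⟩ := h'
    exact ⟨v, hv, a, ha, rfl⟩
  · rintro ⟨v, hv, a, ha, rfl⟩
    exact mul_mem (Subgroup.mem_sup_left hv) (Subgroup.mem_sup_right ha)

theorem cj_le_sup {p : G} (hp : p ∈ nP V) : cj V' p ≤ V ⊔ V' := by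
  rintro _ ⟨a, ha, rfl⟩
  refine h.mem_sup.2 ⟨⁅p, a⁆, h.setting.commutator_mem hp (h.le_nP ha), a, ha, ?_⟩
  show p * a * p⁻¹ = ⁅p, a⁆ * a
  rw [commutatorElement_def]; group

/-- Every nontrivial element of `VV'` lies in a conjugate of `V` inside `VV'`. -/
theorem exists_component {w : G} (hw : w ∈ V ⊔ V') :
    ∃ x : G, cj V x ≤ V ⊔ V' ∧ w ∈ cj V x := by
  obtain ⟨v, hv, a, ha, rfl⟩ := h.mem_sup.1 hw
  rcases eq_or_ne a 1 with rfl | ha1
  · exact ⟨1, by rw [cj_one]; exact le_sup_left, by rw [cj_one, mul_one]; exact hv⟩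
  obtain ⟨p, hp, he⟩ := h.exists_conj ha ha1 hv
  obtain ⟨g, hg⟩ := h.conj
  refine ⟨p * g, by rw [← cj_cj, ← hg]; exact h.cj_le_sup hp, ?_⟩
  rw [← cj_cj, ← hg, ← he]
  exact conj_mem_cj p ha

/-- The key step: a conjugate of `V` by `P'` meeting `VV'`. -/
theorem le_nQ_of_meet {y w : G} (hy : y ∈ nP V') (hw : w ∈ V ⊔ V') (hwy : w ∈ cj V y)
    (hw1 : w ≠ 1) (hwV : w ∉ V) : V ≤ nQ V' := by
  obtain ⟨v, hv, a, ha, rfl⟩ := h.mem_sup.1 hw
  have ha1 : a ≠ 1 := fun e => hwV (by rw [e, mul_one]; exact hv)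
  obtain ⟨p, hp, he⟩ := h.exists_conj ha ha1 hv
  obtain ⟨g, hg⟩ := h.conj
  have heq : cj V' p = cj V y := by
    rw [hg, cj_cj]
    exact h.setting.ti _ y _ hw1 (by rw [← cj_cj, ← hg, ← he]; exact conj_mem_cj p ha) hwy
  have hVn : cj V' p ≠ V' := by
    intro e
    rw [e] at heq
    apply h.ne
    have := congrArg (fun U => cj U y⁻¹) heq
    simp only [cj_inv_cancel] at this
    rw [← this, cj_eq_self_iff.2 (inv_mem (nQ_le V' (mem_nP.1 hy).1))]
  intro v' hv'
  -- every element of `V` is a commutator of `p` with `V'`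
  let f : V' → V := fun b => ⟨⁅p⁻¹, (b : G)⁆, h.setting.commutator_mem (inv_mem hp) (h.le_nP b.2)⟩
  have hinj : Function.Injective f := by
    rintro ⟨b, hb⟩ ⟨b', hb'⟩ e
    have e' : ⁅p⁻¹, b⁆ = ⁅p⁻¹, b'⁆ := congrArg Subtype.val e
    by_contra hne
    have hne' : b'⁻¹ * b ≠ 1 := fun e2 => hne (Subtype.ext (inv_mul_eq_one.1 e2).symm)
    have hfix : p⁻¹ * (b'⁻¹ * b) * p = b'⁻¹ * b := by
      calc p⁻¹ * (b'⁻¹ * b) * p = (p⁻¹ * b' * p)⁻¹ * ⁅p⁻¹, b⁆ * b := by rw [commutatorElement_def]; group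
        _ = (p⁻¹ * b' * p)⁻¹ * ⁅p⁻¹, b'⁆ * b := by rw [e']
        _ = b'⁻¹ * b := by rw [commutatorElement_def]; group
    refine hVn ?_
    rw [hg, cj_cj]
    refine h.setting.ti _ g _ hne' ?_ (hg ▸ mul_mem (inv_mem hb') hb)
    rw [← cj_cj, ← hg, mem_cj, hfix]
    exact mul_mem (inv_mem hb') hb
  obtain ⟨b, hb⟩ := (hinj.bijective_of_nat_card_le h.card_eq.ge).2 ⟨v', hv'⟩
  have hb' : ⁅p⁻¹, (b : G)⁆ = v' := congrArg Subtype.val hb
  rw [← hb', commutatorElement_def, inv_inv]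
  refine mul_mem ?_ (inv_mem (h.setting'.le_nQ b.2))
  rw [← mem_cj, ← nQ_cj, heq, nQ_cj, mem_cj]
  have hby : y⁻¹ * (b : G) * y = b := by
    rw [mul_assoc, (mem_nP.1 hy).2 _ b.2, inv_mul_cancel_left]
  rw [hby]
  exact h.le b.2

/-- The symmetry. -/
theorem le_nQ' : V ≤ nQ V' := by
  classical
  by_contra hnot
  have S := h.setting
  have S' := h.setting'
  have hVN' : ∀ v ∈ V, v ∈ Subgroup.normalizer (V' : Set G) := fun v hv =>
    mem_normalizer_of_commute fun a ha => (h.comm hv ha).symm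
  -- an element of `P'` moving `v` by an element of `V'` fixes it
  have h2 : ∀ y ∈ nP V', ∀ v ∈ V, ⁅y, v⁆ ∈ V' → y * v = v * y := by
    intro y hy v hv hc
    refine commutatorElement_eq_one_iff_mul_comm.1 ?_
    by_contra hc1
    have e : y * v * y⁻¹ = ⁅y, v⁆ * v := by rw [commutatorElement_def]; group
    refine hnot (h.le_nQ_of_meet hy (w := y * v * y⁻¹) ?_ (conj_mem_cj y hv) ?_ ?_)
    · rw [e]; exact mul_mem (Subgroup.mem_sup_right hc) (Subgroup.mem_sup_left hv)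
    · intro h1
      rw [mul_inv_eq_one, mul_eq_left] at h1
      exact hc1 (by rw [h1, commutatorElement_one_right])
    · intro h1
      rw [e] at h1
      exact hc1 (h.eq_one ((Subgroup.mul_mem_cancel_right V hv).1 h1) hc)
  have hB1 : ∀ v ∈ V, v ∈ nP V' → v = 1 := by
    intro v hv hvP
    refine h.eq_one hv (S'.mem_of_commute hvP fun y hy => ?_)
    exact (h2 y hy v hv (S'.commutator_mem hy hvP)).symm
  have hB1' : ∀ v ∈ V, v ∈ nQ V' → v = 1 := fun v hv hvQ =>
    hB1 v hv (mem_nP.2 ⟨hvQ, fun a ha => (h.comm hv ha).symm⟩)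
  -- an element of `P'` commuting with a nontrivial element of `V` centralizes `V`
  have hD' : ∀ y ∈ nP V', ∀ v ∈ V, v ≠ 1 → y * v = v * y → ∀ u ∈ V, u * y = y * u := by
    intro y hy v hv hv1 hc u hu
    have hN : cj V y = V := by
      refine (S.ti y 1 v hv1 ?_ (by rw [cj_one]; exact hv)).trans (cj_one V)
      rw [mem_cj, show y⁻¹ * v * y = v by rw [mul_assoc, ← hc, inv_mul_cancel_left]]
      exact hv
    have h3 : y * u * y⁻¹ * u⁻¹ ∈ V :=
      mul_mem ((Subgroup.mem_normalizer_iff.1 (cj_eq_self_iff.1 hN) u).1 hu) (inv_mem hu)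
    have h4 : y * u * y⁻¹ * u⁻¹ ∈ nP V' := by
      rw [show y * u * y⁻¹ * u⁻¹ = y * (u * y⁻¹ * u⁻¹) by group]
      exact mul_mem hy (conj_nP (hVN' u hu) (inv_mem hy))
    exact (commutatorElement_eq_one_iff_mul_comm.1 (hB1 _ h3 h4)).symm
  obtain ⟨m, hm, hU⟩ := h.exists_partner
  obtain ⟨hon1, hon2⟩ := h.exists_commutator hm hU
  have hUpair := h.conj_pair hm
  obtain ⟨v0, hv0, hv01⟩ : ∃ v ∈ V, v ≠ 1 := by
    by_contra hcon
    push_neg at hcon
    exact hnot fun v hv => by rw [hcon v hv]; exact one_mem _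
  obtain ⟨a0, ha0, ha01⟩ : ∃ a ∈ V', a ≠ 1 := by
    obtain ⟨g, hg⟩ := h.conj
    exact ⟨g * v0 * g⁻¹, hg ▸ conj_mem_cj g hv0, by simpa using hv01⟩
  obtain ⟨b0, hb0, hb01⟩ : ∃ b ∈ cj V' m, b ≠ 1 :=
    ⟨m * a0 * m⁻¹, conj_mem_cj m ha0, by simpa using ha01⟩
  let D : Set G := {d | d ∈ nP V ∧ ∀ a ∈ V', a * d = d * a}
  have hdecomp : ∀ p ∈ nP V, ∃ d ∈ D, ∃ b ∈ cj V' m, p = d * b := by
    intro p hp
    obtain ⟨b, hb, he⟩ := hon1 a0 ha0 ha01 _ (S.commutator_mem hp (h.le_nP ha0))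
    have hbP := hUpair.le_nP hb
    have hd : p * b⁻¹ ∈ nP V := mul_mem hp (inv_mem hbP)
    refine ⟨p * b⁻¹, ⟨hd, h.centralizes hd ha0 ha01 ?_⟩, b, hb, by group⟩
    refine commutatorElement_eq_one_iff_mul_comm.1 ?_
    have h1 := S.commutator_mul_left (x := p * b⁻¹) (y := b) (z := a0) hd
      (he ▸ S.commutator_mem hp (h.le_nP ha0))
    rw [inv_mul_cancel_right, he] at h1
    exact left_eq_mul.1 h1
  have hZD : ∀ z ∈ D, (∀ d ∈ D, z * d = d * z) → z ∈ V ⊔ V' := by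
    rintro z ⟨hzP, hzV'⟩ hz
    obtain ⟨a, ha, he⟩ := hon2 b0 hb0 hb01 _ (S.commutator_mem (hUpair.le_nP hb0) hzP)
    have htP : a⁻¹ * z ∈ nP V := mul_mem (inv_mem (h.le_nP ha)) hzP
    have htb : ⁅a⁻¹ * z, b0⁆ = 1 := by
      rw [S.commutator_mul_left (inv_mem (h.le_nP ha)) (S.commutator_mem hzP (hUpair.le_nP hb0)),
        S'.inv_eq ha, S.commutator_comm hzP (hUpair.le_nP hb0),
        S.commutator_comm (h.le_nP ha) (hUpair.le_nP hb0), he]
      exact S.elem _ (S.commutator_mem (hUpair.le_nP hb0) hzP)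
    have htU := hUpair.centralizes htP hb0 hb01 (commutatorElement_eq_one_iff_mul_comm.1 htb)
    have htV : a⁻¹ * z ∈ V := by
      refine S.mem_of_commute htP fun p hp => ?_
      obtain ⟨d, hd, b, hb, rfl⟩ := hdecomp p hp
      have c1 : Commute (a⁻¹ * z) d :=
        Commute.mul_left (Commute.inv_left (hd.2 a ha)) (hz d hd)
      have c2 : Commute (a⁻¹ * z) b := (htU b hb).symm
      exact (c1.mul_right c2).eq
    rw [show z = a * (a⁻¹ * z) by group]
    exact mul_mem (Subgroup.mem_sup_right ha) (Subgroup.mem_sup_left htV)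
  have hI : ∀ i ∈ nP V, i ∈ nP V' → i ∈ V' := by
    intro i hi hi'
    have hiD : i ∈ D := ⟨hi, (mem_nP.1 hi').2⟩
    have hiw : i ∈ V ⊔ V' := by
      refine hZD i hiD fun d hd => commutatorElement_eq_one_iff_mul_comm.1 (hB1 _ (S.commutator_mem hi hd.1) ?_)
      rw [commutatorElement_def, show i * d * i⁻¹ * d⁻¹ = i * (d * i⁻¹ * d⁻¹) by group]
      exact mul_mem hi' (conj_nP (mem_normalizer_of_commute hd.2) (inv_mem hi'))
    obtain ⟨v, hv, a, ha, rfl⟩ := h.mem_sup.1 hiw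
    have hv' : v ∈ nP V' := by
      rw [show v = v * a * a⁻¹ by group]
      exact mul_mem hi' (inv_mem (S'.le_nP ha))
    rw [hB1 v hv hv', one_mul]; exact ha
  -- `E` is `C(V) ∩ P'`
  have hED : ∀ e ∈ nP V', (∀ v ∈ V, v * e = e * v) → ∀ d ∈ D, d * e * d⁻¹ * e⁻¹ ∈ V' := by
    intro e he heV d hd
    refine hI _ ?_ ?_
    · rw [show d * e * d⁻¹ * e⁻¹ = d * (e * d⁻¹ * e⁻¹) by group]
      exact mul_mem hd.1 (conj_nP (mem_normalizer_of_commute heV) (inv_mem hd.1))
    · exact mul_mem (conj_nP (mem_normalizer_of_commute hd.2) he) (inv_mem he)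
  have hfin : ∀ z ∈ V, z ≠ 1 → (∀ y ∈ nP V', ⁅y, z⁆ ∈ V') → False := by
    intro z hz hz1 hall
    refine hz1 (hB1' z hz (S'.mem_nQ_of_chain (hVN' z hz) (fun a ha => (h.comm hz ha).symm) fun y hy => ?_))
    have hc := h2 y hy z hz (hall y hy)
    rw [show z * y * z⁻¹ * y⁻¹ = 1 by rw [← hc]; group]
    exact one_mem _
  have hsD' : ∀ y ∈ nP V', ∀ u ∈ V, u * (v0 * y * v0⁻¹ * y⁻¹) = v0 * y * v0⁻¹ * y⁻¹ * u := by
    intro y hy
    set s := v0 * y * v0⁻¹ * y⁻¹ with hs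
    have hsP : s ∈ nP V' := mul_mem (conj_nP (hVN' v0 hv0) hy) (inv_mem hy)
    refine hD' s hsP v0 hv0 hv01 (h2 s hsP v0 hv0 ?_)
    have e : v0 * s * v0⁻¹ = s⁻¹ := by
      rw [hs]
      have h1 := S.inv_eq hv0
      calc v0 * (v0 * y * v0⁻¹ * y⁻¹) * v0⁻¹ = (v0 * v0) * y * v0⁻¹ * y⁻¹ * v0⁻¹ := by group
        _ = y * v0 * y⁻¹ * v0⁻¹ := by rw [S.elem v0 hv0, one_mul, h1]
        _ = (v0 * y * v0⁻¹ * y⁻¹)⁻¹ := by group
    rw [commutatorElement_def]
    rw [show s * v0 * s⁻¹ * v0⁻¹ = s * (v0 * s * v0⁻¹)⁻¹ by group, e, inv_inv]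
    exact S'.sq_mem hsP
  by_cases hab : ∀ d1 ∈ D, ∀ d2 ∈ D, d1 * d2 = d2 * d1
  · -- `D` abelian
    have hDW : ∀ d ∈ D, d ∈ V ⊔ V' := fun d hd => hZD d hd (hab d hd)
    have hE : ∀ e ∈ nP V', (∀ v ∈ V, v * e = e * v) → e ∈ V' := by
      intro e he heV
      have heN := mem_normalizer_of_commute heV
      refine hI e (mem_nP.2 ⟨S.mem_nQ_of_chain heN heV fun p hp => ?_, heV⟩) he
      obtain ⟨d, hd, b, hb, rfl⟩ := hdecomp p hp
      have hde : e * d * e⁻¹ = d := by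
        obtain ⟨v, hv, a, ha, rfl⟩ := h.mem_sup.1 (hDW d hd)
        rw [← mul_assoc, ← heV v hv, mul_assoc v e a, ← (mem_nP.1 he).2 a ha]; group
      have hbP := hUpair.le_nP hb
      set w := e * b * e⁻¹ * b⁻¹ with hwdef
      have hwP : w ∈ nP V := mul_mem (conj_nP heN hbP) (inv_mem hbP)
      rcases eq_or_ne b 1 with rfl | hb1
      · simp only [mul_one, hde, mul_inv_cancel]; exact one_mem V
      have hwa : ⁅w, a0⁆ = 1 := by
        have hbc := S.commutator_mem hbP (h.le_nP ha0)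
        have h1 := S.commutator_mul_left (x := w) (y := b) (z := a0) hwP hbc
        have h2 : ⁅w * b, a0⁆ = ⁅b, a0⁆ := by
          have h3 : e * ⁅b, a0⁆ * e⁻¹ = ⁅b, a0⁆ := by rw [← heV _ hbc]; group
          have h4 : e * a0 * e⁻¹ = a0 := by rw [← (mem_nP.1 he).2 a0 ha0]; group
          calc ⁅w * b, a0⁆ = ⁅e * b * e⁻¹, e * a0 * e⁻¹⁆ := by rw [h4, hwdef]; group
            _ = e * ⁅b, a0⁆ * e⁻¹ := by simp only [commutatorElement_def]; group
            _ = ⁅b, a0⁆ := h3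
        rw [h2] at h1
        exact left_eq_mul.1 h1
      have hwD : w ∈ D := ⟨hwP, h.centralizes hwP ha0 ha01 (commutatorElement_eq_one_iff_mul_comm.1 hwa)⟩
      obtain ⟨v, hv, a, ha, hwva⟩ := h.mem_sup.1 (hDW w hwD)
      have ha1 : a = 1 := by
        by_contra ha1
        have hbb : b * b = 1 := hUpair.setting'.elem b hb
        have hsq : (w * b) * (w * b) = 1 := by
          rw [hwdef, show e * b * e⁻¹ * b⁻¹ * b * (e * b * e⁻¹ * b⁻¹ * b) = e * (b * b) * e⁻¹ by group,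
            hbb]; group
        rw [hwva] at hsq
        have c1 : v * (a * b) = a * b * v := S.central hv (mul_mem (h.le_nP ha) hbP)
        have hsq' : a * b * (a * b) = 1 := by
          calc a * b * (a * b) = v * (v * (a * b * (a * b))) := by rw [← mul_assoc v v, S.elem v hv, one_mul]
            _ = v * a * b * (v * a * b) := by
                rw [show v * (v * (a * b * (a * b))) = v * (v * (a * b)) * (a * b) by group, c1]; group
            _ = 1 := hsq
        refine hU a ha ha1 b hb hb1 ?_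
        have hinv := eq_inv_of_mul_eq_one_left hsq'
        rwa [mul_inv_rev, S'.inv_eq ha, hUpair.setting'.inv_eq hb] at hinv
      rw [show e * (d * b) * e⁻¹ * (d * b)⁻¹ = e * d * e⁻¹ * w * d⁻¹ by rw [hwdef]; group, hde, hwva,
        ha1, mul_one]
      rw [show d * v = v * d from (S.central hv hd.1).symm, mul_inv_cancel_right]
      exact hv
    refine hfin v0 hv0 hv01 fun y hy => ?_
    have hs := hE _ (mul_mem (conj_nP (hVN' v0 hv0) hy) (inv_mem hy)) (hsD' y hy)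
    rw [commutatorElement_def, show y * v0 * y⁻¹ * v0⁻¹ = (v0 * y * v0⁻¹ * y⁻¹)⁻¹ by group]
    exact inv_mem hs
  · push_neg at hab
    obtain ⟨d1, hd1, d2, hd2, hne⟩ := hab
    have hd12 : ∀ y ∈ nP V', ∀ d ∈ D, ∀ u ∈ V,
        u * (d * y * d⁻¹ * y⁻¹) = d * y * d⁻¹ * y⁻¹ * u := by
      intro y hy d hd
      set t := d * y * d⁻¹ * y⁻¹ with ht
      have htP : t ∈ nP V' := mul_mem (conj_nP (mem_normalizer_of_commute hd.2) hy) (inv_mem hy)
      refine hD' t htP v0 hv0 hv01 (h2 t htP v0 hv0 ?_)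
      set s := v0 * y * v0⁻¹ * y⁻¹ with hs
      have hsP : s ∈ nP V' := mul_mem (conj_nP (hVN' v0 hv0) hy) (inv_mem hy)
      have hc := hED s hsP (hsD' y hy) d hd
      set c := d * s * d⁻¹ * s⁻¹ with hcdef
      have hv0d : v0 * d = d * v0 := S.central hv0 hd.1
      have e : v0 * t * v0⁻¹ = c * ⁅s, t⁆ * t := by
        calc v0 * t * v0⁻¹ = (v0 * d) * y * (v0 * d)⁻¹ * (v0 * y⁻¹ * v0⁻¹) := by rw [ht]; group
          _ = (d * v0) * y * (d * v0)⁻¹ * (v0 * y⁻¹ * v0⁻¹) := by rw [hv0d]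
          _ = c * (s * t * s⁻¹) := by rw [hcdef, ht, hs]; group
          _ = c * ⁅s, t⁆ * t := by rw [commutatorElement_def]; group
      rw [commutatorElement_def, show t * v0 * t⁻¹ * v0⁻¹ = t * (v0 * t * v0⁻¹)⁻¹ by group, e,
        show t * (c * ⁅s, t⁆ * t)⁻¹ = (c * ⁅s, t⁆)⁻¹ by group]
      exact inv_mem (mul_mem hc (S'.commutator_mem hsP htP))
    have hz := S.commutator_mem hd1.1 hd2.1
    refine hfin _ hz (fun e => hne (commutatorElement_eq_one_iff_mul_comm.1 e)) fun y0 hy0 => ?_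
    have hdd : d2 * d1 ∈ Subgroup.normalizer (V' : Set G) :=
      mul_mem (mem_normalizer_of_commute hd2.2) (mem_normalizer_of_commute hd1.2)
    set y := (d2 * d1)⁻¹ * y0 * (d2 * d1) with hydef
    have hy : y ∈ nP V' := by
      have := conj_nP (inv_mem hdd) hy0
      rwa [inv_inv] at this
    set s1 := d1 * y * d1⁻¹ * y⁻¹ with hs1
    set s2 := d2 * y * d2⁻¹ * y⁻¹ with hs2
    have hs1P : s1 ∈ nP V' := mul_mem (conj_nP (mem_normalizer_of_commute hd1.2) hy) (inv_mem hy)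
    have hs2P : s2 ∈ nP V' := mul_mem (conj_nP (mem_normalizer_of_commute hd2.2) hy) (inv_mem hy)
    have hc1 := hED s2 hs2P (hd12 y hy d2 hd2) d1 hd1
    have hc2 := hED s1 hs1P (hd12 y hy d1 hd1) d2 hd2
    set c1 := d1 * s2 * d1⁻¹ * s2⁻¹ with hc1def
    set c2 := d2 * s1 * d2⁻¹ * s1⁻¹ with hc2def
    have e1 : (d1 * d2) * y * (d1 * d2)⁻¹ = c1 * ⁅s2, s1⁆ * (s1 * s2 * y) := by
      rw [hc1def, commutatorElement_def, hs1, hs2]; group
    have e2 : (d2 * d1) * y * (d2 * d1)⁻¹ = c2 * (s1 * s2 * y) := by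
      rw [hc2def, hs1, hs2]; group
    have e2' : (d2 * d1) * y * (d2 * d1)⁻¹ = y0 := by rw [hydef]; group
    have e3 : ⁅d1, d2⁆ * y0 * ⁅d1, d2⁆⁻¹ = c1 * ⁅s2, s1⁆ * c2⁻¹ * y0 := by
      calc ⁅d1, d2⁆ * y0 * ⁅d1, d2⁆⁻¹
          = (d1 * d2) * y * (d1 * d2)⁻¹ := by rw [← e2', commutatorElement_def]; group
        _ = c1 * ⁅s2, s1⁆ * c2⁻¹ * (c2 * (s1 * s2 * y)) := by rw [e1]; group
        _ = c1 * ⁅s2, s1⁆ * c2⁻¹ * y0 := by rw [← e2, e2']
    rw [commutatorElement_def y0]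
    rw [show y0 * ⁅d1, d2⁆ * y0⁻¹ * ⁅d1, d2⁆⁻¹ = y0 * (⁅d1, d2⁆ * y0 * ⁅d1, d2⁆⁻¹)⁻¹ by group, e3,
      show y0 * (c1 * ⁅s2, s1⁆ * c2⁻¹ * y0)⁻¹ = (c1 * ⁅s2, s1⁆ * c2⁻¹)⁻¹ by group]
    exact inv_mem (mul_mem (mul_mem hc1 (S'.commutator_mem hs2P hs1P)) (inv_mem hc2))

/-- The pair with the roles interchanged. -/
theorem symm : Pair V' V := by
  refine ⟨h.setting', ?_, fun e => h.ne e.symm, h.le_nQ'⟩
  obtain ⟨g, rfl⟩ := h.conj
  exact ⟨g⁻¹, (cj_inv_cancel V g).symm⟩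

end Pair

end Cfsg.Agent.H76.TISpread
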