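import Mathlib

/-!
A space of matrices over the field of two elements, of dimension equal to their size, which contains
the identity, consists of invertible matrices apart from zero and is closed under `(a, b) ↦ a b a`,
is commutative. The proof compares the generic minimal polynomial with the Chevalley–Warning theorem.
-/

set_option autoImplicit false

open Polynomial

namespace Cfsg.Agent.H76.TISpread

local notation "𝔽" => ZMod 2

section degree

variable {σ : Type*}

/-- The substitution `X i ↦ X i * T`. -/
noncomputable def scaleVar : MvPolynomial σ 𝔽 →+* (MvPolynomial σ 𝔽)[X] :=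
  MvPolynomial.eval₂Hom (Polynomial.C.comp MvPolynomial.C) fun i => C (MvPolynomial.X i) * X

theorem scaleVar_monomial (d : σ →₀ ℕ) (c : 𝔽) :
    scaleVar (MvPolynomial.monomial d c) = C (MvPolynomial.monomial d c) * X ^ (d.sum fun _ e => e) := by
  induction d using Finsupp.induction generalizing c with
  | zero => simp [scaleVar]
  | single_add i k d hi hk ih =>
    rw [MvPolynomial.monomial_single_add, map_mul, map_pow, ih,
      show scaleVar (MvPolynomial.X i : MvPolynomial σ 𝔽) = C (MvPolynomial.X i) * X by simp [scaleVar],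
      Finsupp.sum_add_index' (fun _ => rfl) (fun _ _ _ => rfl), Finsupp.sum_single_index rfl,
      map_mul, map_pow, pow_add, mul_pow]
    ring

theorem totalDegree_le_natDegree_scaleVar (f : MvPolynomial σ 𝔽) :
    f.totalDegree ≤ (scaleVar f).natDegree := by
  classical
  refine Finset.sup_le fun d hd => ?_
  refine le_natDegree_of_ne_zero fun h => MvPolynomial.mem_support_iff.1 hd ?_
  have h1 : scaleVar f = ∑ e ∈ f.support,
      C (MvPolynomial.monomial e (f.coeff e)) * X ^ (e.sum fun _ k => k) := by
    conv_lhs => rw [f.as_sum, map_sum]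
    exact Finset.sum_congr rfl fun e _ => scaleVar_monomial e _
  have h2 := congrArg (MvPolynomial.coeff d) h
  rw [h1, finsetSum_coeff, MvPolynomial.coeff_sum, MvPolynomial.coeff_zero] at h2
  rw [Finset.sum_eq_single d] at h2
  · rwa [coeff_C_mul_X_pow, if_pos rfl, MvPolynomial.coeff_monomial, if_pos rfl] at h2
  · intro e _ he
    rw [coeff_C_mul_X_pow]
    split
    · rw [MvPolynomial.coeff_monomial, if_neg he]
    · exact MvPolynomial.coeff_zero _
  · intro h'; exact absurd hd h'

end degree

variable {n : ℕ}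

/-- The substitution `X i ↦ X i * T`, `t ↦ t * T`. -/
noncomputable def scaleAll :
    (MvPolynomial (Fin n) 𝔽)[X] →+* ((MvPolynomial (Fin n) 𝔽)[X])[X] :=
  Polynomial.eval₂RingHom (S := ((MvPolynomial (Fin n) 𝔽)[X])[X])
    ((mapRingHom (C : MvPolynomial (Fin n) 𝔽 →+* (MvPolynomial (Fin n) 𝔽)[X])).comp scaleVar) (C X * X)

theorem scaleAll_C_X (i : Fin n) :
    scaleAll (C (MvPolynomial.X i : MvPolynomial (Fin n) 𝔽)) = X * C (C (MvPolynomial.X i)) := by
  simp [scaleAll, scaleVar]

theorem scaleAll_X : scaleAll (X : (MvPolynomial (Fin n) 𝔽)[X]) = X * C X := by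
  simp [scaleAll]

variable (a : Fin n → Matrix (Fin n) (Fin n) 𝔽)

/-- The generic element. -/
noncomputable def gen : Matrix (Fin n) (Fin n) (MvPolynomial (Fin n) 𝔽) :=
  ∑ i, (MvPolynomial.X i : MvPolynomial (Fin n) 𝔽) • (a i).map (MvPolynomial.C : 𝔽 →+* _)

theorem gen_map_eval (c : Fin n → 𝔽) :
    (gen a).map (MvPolynomial.eval c) = ∑ i, c i • a i := by
  ext i j
  simp [gen, Matrix.sum_apply, map_sum]

theorem natDegree_scaleAll_charpoly : (scaleAll (gen a).charpoly).natDegree ≤ n := by
  have h : scaleAll.mapMatrix (Matrix.charmatrix (gen a)) =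
      (X : ((MvPolynomial (Fin n) 𝔽)[X])[X]) • (Matrix.charmatrix (gen a)).map C +
        (0 : Matrix (Fin n) (Fin n) (MvPolynomial (Fin n) 𝔽)[X]).map C := by
    have hlin : ∀ i j, scaleAll (C (gen a i j)) = X * C (C (gen a i j)) := by
      intro i j
      simp only [gen, Matrix.sum_apply, Matrix.smul_apply, Matrix.map_apply, smul_eq_mul, map_sum,
        map_mul, Finset.mul_sum]
      refine Finset.sum_congr rfl fun l _ => ?_
      rw [scaleAll_C_X, mul_assoc]
      congr 2
      simp [scaleAll, scaleVar]
    apply Matrix.ext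
    intro i j
    rw [RingHom.mapMatrix_apply, Matrix.map_apply, Matrix.add_apply, Matrix.smul_apply,
      Matrix.map_apply, Matrix.map_apply, Matrix.zero_apply, map_zero, add_zero, smul_eq_mul]
    by_cases hij : i = j
    · subst hij
      rw [Matrix.charmatrix_apply_eq, map_sub, scaleAll_X, hlin, map_sub]; ring
    · rw [Matrix.charmatrix_apply_ne _ _ _ hij, map_neg, hlin, map_neg]; ring
  rw [Matrix.charpoly]
  have hd := RingHom.map_det (R := (MvPolynomial (Fin n) 𝔽)[X]) (S := ((MvPolynomial (Fin n) 𝔽)[X])[X])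
    scaleAll (Matrix.charmatrix (gen a))
  refine le_of_eq_of_le (congrArg natDegree (hd.trans (congrArg Matrix.det h))) ?_
  exact (Polynomial.natDegree_det_X_add_C_le _ _).trans (by rw [Fintype.card_fin])

theorem totalDegree_coeff_zero_le {μ ν : (MvPolynomial (Fin n) 𝔽)[X]} (hν : ν.Monic)
    (h : (gen a).charpoly = μ * ν) : (μ.coeff 0).totalDegree ≤ μ.natDegree := by
  rcases eq_or_ne μ 0 with rfl | hμ
  · simp
  have hdeg : μ.natDegree + ν.natDegree = n := by
    rw [← natDegree_mul hμ hν.ne_zero, ← h, Matrix.charpoly_natDegree_eq_dim, Fintype.card_fin]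
  -- specialise the variables to zero and `t` to one
  let π : (MvPolynomial (Fin n) 𝔽)[X] →+* 𝔽 :=
    eval₂RingHom (MvPolynomial.eval fun _ => (0 : 𝔽)) 1
  have hπ : (scaleAll ν).map π = ν.map (MvPolynomial.eval fun _ => (0 : 𝔽)) := by
    have : (mapRingHom π).comp scaleAll = mapRingHom (MvPolynomial.eval fun _ : Fin n => (0 : 𝔽)) := by
      refine Polynomial.ringHom_ext' (MvPolynomial.ringHom_ext (fun r => ?_) fun i => ?_) ?_
      · simp [scaleAll, scaleVar, π]
      · simp [scaleAll, scaleVar, π]
      · simp [scaleAll, π]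
    exact RingHom.congr_fun this ν
  have hνmon : ((scaleAll ν).map π).Monic := hπ ▸ hν.map _
  have hν0 : scaleAll ν ≠ 0 := fun h0 => hνmon.ne_zero (by rw [h0, Polynomial.map_zero])
  have hνdeg : ν.natDegree ≤ (scaleAll ν).natDegree := by
    calc ν.natDegree = ((scaleAll ν).map π).natDegree := by rw [hπ, hν.natDegree_map]
      _ ≤ _ := natDegree_map_le
  have hμdeg : (scaleAll μ).natDegree ≤ μ.natDegree := by
    rcases eq_or_ne (scaleAll μ) 0 with h0 | h0
    · simp [h0]
    have := natDegree_scaleAll_charpoly a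
    rw [h, map_mul, natDegree_mul h0 hν0] at this
    omega
  refine (totalDegree_le_natDegree_scaleVar _).trans (le_trans ?_ hμdeg)
  have hz : (scaleAll μ).map (evalRingHom (0 : MvPolynomial (Fin n) 𝔽)) = scaleVar (μ.coeff 0) := by
    have : (mapRingHom (evalRingHom (0 : MvPolynomial (Fin n) 𝔽))).comp scaleAll =
        scaleVar.comp (evalRingHom 0) := by
      refine Polynomial.ringHom_ext' (MvPolynomial.ringHom_ext (fun r => ?_) fun i => ?_) ?_
      · simp [scaleAll, scaleVar]
      · simp [scaleAll, scaleVar]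
      · simp [scaleAll]
    have := RingHom.congr_fun this μ
    simpa [coeff_zero_eq_eval_zero] using this
  rw [← hz]
  exact natDegree_map_le

variable {a}

/-- Commutativity. -/
theorem commute_of_jordan (A : Submodule 𝔽 (Matrix (Fin n) (Fin n) 𝔽)) (b : Module.Basis (Fin n) 𝔽 A)
    (h1 : (1 : Matrix (Fin n) (Fin n) 𝔽) ∈ A) (hdet : ∀ x ∈ A, x ≠ 0 → x.det ≠ 0)
    (hU : ∀ x ∈ A, ∀ y ∈ A, x * y * x ∈ A) : ∀ x ∈ A, ∀ y ∈ A, x * y = y * x := by
  classical
  rcases Nat.eq_zero_or_pos n with rfl | hn
  · intro u _ v _; exact Subsingleton.elim _ _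
  haveI : Nonempty (Fin n) := ⟨⟨0, hn⟩⟩
  set a : Fin n → Matrix (Fin n) (Fin n) 𝔽 := fun i => (b i : Matrix (Fin n) (Fin n) 𝔽) with ha
  let K := FractionRing (MvPolynomial (Fin n) 𝔽)
  let ι : MvPolynomial (Fin n) 𝔽 →+* K := algebraMap _ _
  have hι : Function.Injective ι := IsFractionRing.injective _ _
  let κ : 𝔽 →+* K := ι.comp MvPolynomial.C
  let x : Matrix (Fin n) (Fin n) K := (gen a).map ι
  set W : Submodule K (Matrix (Fin n) (Fin n) K) :=
    Submodule.span K (Set.range fun i => (a i).map κ) with hW
  have hmemW : ∀ y ∈ A, y.map κ ∈ W := by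
    intro y hy
    have hy' : y = ∑ i, b.repr ⟨y, hy⟩ i • a i := by
      have := congrArg Subtype.val (b.sum_repr ⟨y, hy⟩)
      rw [Submodule.coe_sum] at this
      exact this.symm
    have : y.map κ = ∑ i, κ (b.repr ⟨y, hy⟩ i) • (a i).map κ := by
      conv_lhs => rw [hy']
      ext i j
      simp [Matrix.sum_apply, map_sum]
    rw [this]
    exact W.sum_mem fun i _ => W.smul_mem _ (Submodule.subset_span ⟨i, rfl⟩)
  have hx : x = ∑ i, ι (MvPolynomial.X i) • (a i).map κ := by
    ext i j
    simp [x, gen, κ, Matrix.sum_apply, map_sum]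
  have hxW : x ∈ W := by
    rw [hx]; exact W.sum_mem fun i _ => W.smul_mem _ (Submodule.subset_span ⟨i, rfl⟩)
  -- closure of the span
  have hclose : ∀ y ∈ W, x * y * x ∈ W := by
    have hmap : ∀ u v w : Matrix (Fin n) (Fin n) 𝔽, u.map κ * v.map κ * w.map κ = (u * v * w).map κ :=
      fun u v w => by rw [Matrix.map_mul, Matrix.map_mul]
    have key : ∀ j, ∀ s : Finset (Fin n), ∀ c : Fin n → K,
        (∑ i ∈ s, c i • (a i).map κ) * (a j).map κ * (∑ i ∈ s, c i • (a i).map κ) ∈ W := by
      intro j s c
      induction s using Finset.induction_on with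
      | empty => simp
      | @insert i s hi ih =>
        rw [Finset.sum_insert hi]
        set S := ∑ l ∈ s, c l • (a l).map κ with hS
        have hcross : (a i).map κ * (a j).map κ * S + S * (a j).map κ * (a i).map κ ∈ W := by
          rw [hS, Finset.mul_sum, Finset.sum_mul, Finset.sum_mul, ← Finset.sum_add_distrib]
          refine W.sum_mem fun l _ => ?_
          rw [Matrix.mul_smul, Matrix.smul_mul, Matrix.smul_mul, ← smul_add, hmap, hmap,
            ← Matrix.map_add κ (map_add κ)]
          refine W.smul_mem _ (hmemW _ ?_)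
          have e : a i * a j * a l + a l * a j * a i =
              (a i + a l) * a j * (a i + a l) - a i * a j * a i - a l * a j * a l := by noncomm_ring
          rw [e]
          exact A.sub_mem (A.sub_mem (hU _ (A.add_mem (b i).2 (b l).2) _ (b j).2)
            (hU _ (b i).2 _ (b j).2)) (hU _ (b l).2 _ (b j).2)
        have e : (c i • (a i).map κ + S) * (a j).map κ * (c i • (a i).map κ + S) =
            (c i * c i) • ((a i).map κ * (a j).map κ * (a i).map κ) +
              c i • ((a i).map κ * (a j).map κ * S + S * (a j).map κ * (a i).map κ) +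
              S * (a j).map κ * S := by
          simp only [add_mul, mul_add, Matrix.smul_mul, Matrix.mul_smul, smul_add, smul_smul]
          abel
        rw [e, hmap]
        exact W.add_mem (W.add_mem (W.smul_mem _ (hmemW _ (hU _ (b i).2 _ (b j).2)))
          (W.smul_mem _ hcross)) ih
    intro y hy
    induction hy using Submodule.span_induction with
    | mem y hy => obtain ⟨j, rfl⟩ := hy; rw [hx]; exact key j _ _
    | zero => simp
    | add u v _ _ hu hv => rw [mul_add, add_mul]; exact W.add_mem hu hv
    | smul c u _ hu => rw [Matrix.mul_smul, Matrix.smul_mul]; exact W.smul_mem _ hu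
  have hpow : ∀ k, x ^ k ∈ W := by
    intro k
    induction k using Nat.twoStepInduction with
    | zero =>
      have := hmemW 1 h1
      rwa [Matrix.map_one κ (map_zero κ) (map_one κ)] at this
    | one => rwa [pow_one]
    | more k hk _ =>
      have e : x ^ (k + 2) = x * x ^ k * x := by rw [← pow_succ', ← pow_succ]
      rw [e]; exact hclose _ hk
  -- the generic minimal polynomial
  have hint : IsIntegral K x := Algebra.IsIntegral.isIntegral x
  have hdvd : minpoly K x ∣ (gen a).charpoly.map ι := by
    rw [← Matrix.charpoly_map]; exact minpoly.dvd K x (Matrix.aeval_self_charpoly x)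
  obtain ⟨μ, hμ⟩ := IsIntegrallyClosed.eq_map_mul_C_of_dvd K (Matrix.charpoly_monic (gen a)) hdvd
  rw [(minpoly.monic hint).leadingCoeff, map_one, mul_one] at hμ
  change μ.map ι = minpoly K x at hμ
  have hμmonic : μ.Monic := monic_of_injective hι (hμ ▸ minpoly.monic hint)
  have hμdvd : μ ∣ (gen a).charpoly :=
    (map_dvd_map ι hι hμmonic).1 (hμ ▸ hdvd)
  obtain ⟨ν, hν⟩ := hμdvd
  have hνmonic : ν.Monic := hμmonic.of_mul_monic_left (hν ▸ Matrix.charpoly_monic _)
  have hr : μ.natDegree = n := by
    have hle : μ.natDegree + ν.natDegree = n := by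
      rw [← hμmonic.natDegree_mul hνmonic, ← hν, Matrix.charpoly_natDegree_eq_dim, Fintype.card_fin]
    by_contra hne
    have hlt : (μ.coeff 0).totalDegree < Fintype.card (Fin n) :=
      lt_of_le_of_lt (totalDegree_coeff_zero_le a hνmonic hν) (by rw [Fintype.card_fin]; omega)
    have hsol : ∀ c : Fin n → 𝔽, MvPolynomial.eval c (μ.coeff 0) = 0 ↔ c = 0 := by
      intro c
      set φ := MvPolynomial.eval c
      have hd : μ.map φ ∣ (∑ i, c i • a i).charpoly := by
        rw [← gen_map_eval, Matrix.charpoly_map]; exact Polynomial.map_dvd φ ⟨ν, hν⟩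
      constructor
      · intro h0
        have hX : X ∣ μ.map φ := X_dvd_iff.2 (by rw [coeff_map, h0])
        have hdet0 : (∑ i, c i • a i).det = 0 := by
          rw [Matrix.det_eq_sign_charpoly_coeff, X_dvd_iff.1 (hX.trans hd), mul_zero]
        have hs : (∑ i, c i • a i) ∈ A := A.sum_mem fun i _ => A.smul_mem _ (b i).2
        have hz : (∑ i, c i • a i) = 0 := by
          by_contra hnz
          exact hdet _ hs hnz hdet0
        have hli := Fintype.linearIndependent_iff.1 b.linearIndependent c (Subtype.ext (by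
          simpa [ha] using hz))
        exact funext hli
      · rintro rfl
        rw [show (∑ i, (0 : Fin n → 𝔽) i • a i) = 0 by simp, Matrix.charpoly_zero, Fintype.card_fin] at hd
        have hdeg : 0 < (μ.map φ).natDegree := by
          rw [hμmonic.natDegree_map]
          have := minpoly.natDegree_pos hint
          rwa [← hμ, hμmonic.natDegree_map] at this
        obtain ⟨k, _, hk⟩ := (dvd_prime_pow Polynomial.prime_X n).1 hd
        have hk' : μ.map φ = X ^ k :=
          eq_of_monic_of_associated (hμmonic.map _) (monic_X_pow k) hk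
        rw [hk', natDegree_X_pow] at hdeg
        rw [← coeff_map φ, hk', coeff_X_pow, if_neg (by omega)]
    have hdiv := char_dvd_card_solutions 2 hlt
    haveI : Subsingleton {c : Fin n → 𝔽 // MvPolynomial.eval c (μ.coeff 0) = 0} :=
      ⟨fun u v => Subtype.ext (((hsol u).1 u.2).trans ((hsol v).1 v.2).symm)⟩
    have hone := Fintype.card_eq_one_iff.2
      ⟨(⟨0, (hsol 0).2 rfl⟩ : {c : Fin n → 𝔽 // MvPolynomial.eval c (μ.coeff 0) = 0}),
        fun y => Subsingleton.elim _ _⟩
    rw [hone] at hdiv
    exact absurd (Nat.le_of_dvd one_pos hdiv) (by norm_num)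
  -- the powers span
  have hdeg : (minpoly K x).natDegree = n := by rw [← hμ, hμmonic.natDegree_map, hr]
  have hli : LinearIndependent K fun k : Fin n => x ^ (k : ℕ) := by
    have := (linearIndependent_pow (K := K) x).comp (Fin.cast hdeg.symm) (Fin.cast_injective _)
    exact this
  haveI : Module.Finite K W := inferInstance
  have hfin : Module.finrank K W ≤ n := (finrank_range_le_card _).trans (by rw [Fintype.card_fin])
  have heq : Submodule.span K (Set.range fun k : Fin n => x ^ (k : ℕ)) = W := by
    refine Submodule.eq_of_le_of_finrank_le (Submodule.span_le.2 ?_) ?_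
    · rintro _ ⟨k, rfl⟩; exact hpow _
    · rw [finrank_span_eq_card hli, Fintype.card_fin]; exact hfin
  have hWx : W ≤ (Algebra.adjoin K {x}).toSubmodule := by
    rw [← heq, Submodule.span_le]
    rintro _ ⟨k, rfl⟩
    exact Subalgebra.pow_mem _ (Algebra.self_mem_adjoin_singleton K x) _
  intro u hu v hv
  have hc : ∀ w z : Matrix (Fin n) (Fin n) K, w ∈ Algebra.adjoin K {x} → z ∈ Algebra.adjoin K {x} →
      w * z = z * w := by
    intro w z hw hz
    rw [Algebra.adjoin_singleton_eq_range_aeval] at hw hz
    obtain ⟨p, rfl⟩ := hw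
    obtain ⟨p', rfl⟩ := hz
    exact (Commute.all p p').map (aeval x)
  have huv := hc _ _ (hWx (hmemW u hu)) (hWx (hmemW v hv))
  rw [← Matrix.map_mul, ← Matrix.map_mul] at huv
  have hκ : Function.Injective κ := hι.comp (MvPolynomial.C_injective _ _)
  exact Matrix.map_injective hκ huv

end Cfsg.Agent.H76.TISpread
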