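import Mathlib
import Cfsg.Agent.H76.TISpread.Basic
import Cfsg.Agent.H76.TISpread.Jordan

/-!
The group induced on `VV'` by the centralizers of `V` and `V'` in `O₂` of their normalizers is
`SL₂` over a field with `|V|` elements.
-/

set_option autoImplicit false

open scoped commutatorElement
open Matrix

namespace Cfsg.Agent.H76.TISpread

variable {G : Type*} [Group G] [Finite G] {V V' : Subgroup G} {n : ℕ}

local notation "𝔽" => ZMod 2

/-- A coordinate system of an elementary abelian subgroup. -/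
structure Frame (V : Subgroup G) (n : ℕ) (φ : (Fin n → ZMod 2) → G) : Prop where
  map_add : ∀ x y, φ (x + y) = φ x * φ y
  inj : Function.Injective φ
  mem : ∀ x, φ x ∈ V
  surj : ∀ v ∈ V, ∃ x, φ x = v

namespace Frame

variable {φ : (Fin n → ZMod 2) → G} (Φ : Frame V n φ)
include Φ

omit [Finite G] in
theorem map_zero : φ 0 = 1 := by
  have h := Φ.map_add 0 0
  rw [add_zero] at h
  exact left_eq_mul.1 h

omit [Finite G] in
theorem eq_one {x : Fin n → ZMod 2} : φ x = 1 ↔ x = 0 :=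
  ⟨fun h => Φ.inj (h.trans Φ.map_zero.symm), fun h => h ▸ Φ.map_zero⟩

end Frame

/-- The matrices of the commutation maps `V' → V` given by `P`. -/
def mats (V : Subgroup G) (φ ψ : (Fin n → ZMod 2) → G) : Set (Matrix (Fin n) (Fin n) (ZMod 2)) :=
  {A | ∃ p ∈ nP V, ∀ y, ⁅p, ψ y⁆ = φ (A *ᵥ y)}

namespace Pair

variable (h : Pair V V') {φ ψ : (Fin n → ZMod 2) → G} (Φ : Frame V n φ) (Ψ : Frame V' n ψ)
include h Φ Ψ

theorem exists_mat {p : G} (hp : p ∈ nP V) :
    ∃ A : Matrix (Fin n) (Fin n) 𝔽, ∀ y, ⁅p, ψ y⁆ = φ (A *ᵥ y) := by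
  have hmem : ∀ y, ⁅p, ψ y⁆ ∈ V := fun y => h.setting.commutator_mem hp (h.le_nP (Ψ.mem y))
  choose f hf using fun y => Φ.surj _ (hmem y)
  have hadd : ∀ x y, f (x + y) = f x + f y := fun x y => by
    apply Φ.inj
    have hP := fun y => h.le_nP (Ψ.mem y)
    rw [Φ.map_add, hf, hf, hf, Ψ.map_add, h.setting.commutator_comm hp (mul_mem (hP x) (hP y)),
      h.setting.commutator_mul_left (hP x) (h.setting.commutator_mem (hP y) hp),
      h.setting.commutator_comm (hP x) hp, h.setting.commutator_comm (hP y) hp]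
    exact h.setting.comm (hmem y) (hmem x)
  refine ⟨LinearMap.toMatrix' ((AddMonoidHom.mk' f hadd).toZModLinearMap 2), fun y => ?_⟩
  rw [LinearMap.toMatrix'_mulVec]
  exact (hf y).symm

theorem mats_zero : (0 : Matrix (Fin n) (Fin n) 𝔽) ∈ mats V φ ψ :=
  ⟨1, one_mem _, fun y => by rw [commutatorElement_one_left, Matrix.zero_mulVec, Φ.map_zero]⟩

theorem mats_add {A B : Matrix (Fin n) (Fin n) 𝔽} (hA : A ∈ mats V φ ψ) (hB : B ∈ mats V φ ψ) :
    A + B ∈ mats V φ ψ := by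
  obtain ⟨p, hp, hA⟩ := hA
  obtain ⟨q, hq, hB⟩ := hB
  refine ⟨q * p, mul_mem hq hp, fun y => ?_⟩
  rw [h.setting.commutator_mul_left hq (h.setting.commutator_mem hp (h.le_nP (Ψ.mem y))), hA, hB,
    ← Φ.map_add, Matrix.add_mulVec]

/-- The matrices form a subspace. -/
def matSpace : Submodule 𝔽 (Matrix (Fin n) (Fin n) 𝔽) where
  carrier := mats V φ ψ
  add_mem' := h.mats_add Φ Ψ
  zero_mem' := h.mats_zero Φ Ψ
  smul_mem' c A hA := by
    rcases (show ∀ c : 𝔽, c = 0 ∨ c = 1 by decide) c with rfl | rfl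
    · rw [zero_smul]; exact h.mats_zero Φ Ψ
    · rwa [one_smul]

theorem mats_injective {A : Matrix (Fin n) (Fin n) 𝔽} (hA : A ∈ mats V φ ψ) (hA0 : A ≠ 0)
    {y : Fin n → 𝔽} (hy : A *ᵥ y = 0) : y = 0 := by
  by_contra hy0
  obtain ⟨p, hp, hA⟩ := hA
  have h1 := hA y
  rw [hy, Φ.map_zero] at h1
  have h2 := h.centralizes hp (Ψ.mem y) (fun e => hy0 (Ψ.eq_one.1 e))
    (commutatorElement_eq_one_iff_mul_comm.1 h1)
  refine hA0 (Matrix.ext_of_mulVec_single fun i => ?_)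
  rw [Matrix.zero_mulVec]
  refine Φ.eq_one.1 ?_
  rw [← hA]
  exact commutatorElement_eq_one_iff_mul_comm.2 (h2 _ (Ψ.mem _)).symm

theorem mats_det {A : Matrix (Fin n) (Fin n) 𝔽} (hA : A ∈ mats V φ ψ) (hA0 : A ≠ 0) : A.det ≠ 0 := by
  have hinj : Function.Injective A.mulVec := by
    intro x y hxy
    have := h.mats_injective Φ Ψ hA hA0 (y := x - y) (by
      rw [Matrix.mulVec_sub]; exact sub_eq_zero.2 hxy)
    exact sub_eq_zero.1 this
  exact ((Matrix.isUnit_iff_isUnit_det A).1 (Matrix.mulVec_injective_iff_isUnit.1 hinj)).ne_zero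

theorem mats_eval {y : Fin n → 𝔽} (hy : y ≠ 0) (x : Fin n → 𝔽) : ∃ A ∈ mats V φ ψ, A *ᵥ y = x := by
  obtain ⟨p, hp, he⟩ := h.exists_conj (Ψ.mem y) (fun e => hy (Ψ.eq_one.1 e)) (Φ.mem x)
  obtain ⟨A, hA⟩ := h.exists_mat Φ Ψ hp
  refine ⟨A, ⟨p, hp, hA⟩, Φ.inj ?_⟩
  rw [← hA, commutatorElement_def, he, mul_inv_cancel_right]

theorem finrank_matSpace (hn : 1 ≤ n) : Module.finrank 𝔽 (h.matSpace Φ Ψ) = n := by
  let y : Fin n → 𝔽 := Pi.single ⟨0, hn⟩ 1
  have hy : y ≠ 0 := by simp [y]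
  let f : h.matSpace Φ Ψ →ₗ[𝔽] (Fin n → 𝔽) :=
    { toFun := fun A => (A : Matrix (Fin n) (Fin n) 𝔽) *ᵥ y
      map_add' := fun A B => Matrix.add_mulVec _ _ _
      map_smul' := fun c A => Matrix.smul_mulVec _ _ _ }
  have hf : Function.Bijective f := by
    refine ⟨?_, fun x => ?_⟩
    · rw [← LinearMap.ker_eq_bot, LinearMap.ker_eq_bot']
      intro A hA
      by_contra h0
      exact hy (h.mats_injective Φ Ψ A.2 (fun e => h0 (Subtype.ext e)) hA)
    · obtain ⟨A, hA, he⟩ := h.mats_eval Φ Ψ hy x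
      exact ⟨⟨A, hA⟩, he⟩
  rw [(LinearEquiv.ofBijective f hf).finrank_eq, Module.finrank_fin_fun]

theorem mats_inv (hn : 1 ≤ n) {A : Matrix (Fin n) (Fin n) 𝔽} (hA : A ∈ mats V φ ψ) (hA0 : A ≠ 0) :
    ∃ B ∈ mats V' ψ φ, A * B = 1 := by
  obtain ⟨p, hp, hAp⟩ := hA
  let y : Fin n → 𝔽 := Pi.single ⟨0, hn⟩ 1
  have hy : y ≠ 0 := by simp [y]
  have hx : A *ᵥ y ≠ 0 := fun e => hy (h.mats_injective Φ Ψ ⟨p, hp, hAp⟩ hA0 e)
  obtain ⟨B, ⟨r, hr, hBr⟩, hBy⟩ := h.symm.mats_eval Ψ Φ hx y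
  refine ⟨B, ⟨r, hr, hBr⟩, Matrix.ext_of_mulVec_single fun i => ?_⟩
  obtain ⟨g, hg⟩ := h.conj
  have hp_act : ∀ z, p * ψ z * p⁻¹ = φ (A *ᵥ z) * ψ z := fun z => by
    rw [← hAp, commutatorElement_def]; group
  have hr_act : ∀ x, r * φ x * r⁻¹ = φ x * ψ (B *ᵥ x) := fun x => by
    rw [h.comm (Φ.mem x) (Ψ.mem _), ← hBr, commutatorElement_def]; group
  have heq : cj V r = cj V' p := by
    rw [hg, cj_cj]
    refine h.setting.ti r _ (φ (A *ᵥ y) * ψ y) ?_ ?_ ?_
    · intro e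
      refine hy (Ψ.eq_one.1 (h.eq_one ?_ (Ψ.mem y)))
      rw [eq_inv_of_mul_eq_one_right e]; exact inv_mem (Φ.mem _)
    · have := hr_act (A *ᵥ y)
      rw [hBy] at this
      rw [← this]; exact conj_mem_cj r (Φ.mem _)
    · rw [← hp_act, ← cj_cj, ← hg]; exact conj_mem_cj p (Ψ.mem _)
  have hmem : r * φ (Pi.single i 1) * r⁻¹ ∈ cj V' p := heq ▸ conj_mem_cj r (Φ.mem _)
  obtain ⟨a, ha, he⟩ := hmem
  obtain ⟨z, rfl⟩ := Ψ.surj a ha
  change p * ψ z * p⁻¹ = _ at he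
  rw [hp_act, hr_act] at he
  have e2 : (φ (Pi.single i 1))⁻¹ * φ (A *ᵥ z) = ψ (B *ᵥ Pi.single i 1) * (ψ z)⁻¹ := by
    calc (φ (Pi.single i 1))⁻¹ * φ (A *ᵥ z)
        = (φ (Pi.single i 1))⁻¹ * (φ (A *ᵥ z) * ψ z) * (ψ z)⁻¹ := by group
      _ = ψ (B *ᵥ Pi.single i 1) * (ψ z)⁻¹ := by rw [he]; group
  have e3 := h.eq_one (mul_mem (inv_mem (Φ.mem _)) (Φ.mem _))
    (e2 ▸ mul_mem (Ψ.mem _) (inv_mem (Ψ.mem _)))
  rw [e3, eq_comm, mul_inv_eq_one] at e2
  rw [← Matrix.mulVec_mulVec, Ψ.inj e2, Matrix.one_mulVec]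
  exact Φ.inj (inv_mul_eq_one.1 e3).symm

theorem hua (hn : 1 ≤ n) {A B : Matrix (Fin n) (Fin n) 𝔽} (hA : A ∈ mats V φ ψ)
    (hB : B ∈ mats V' ψ φ) : A * B * A ∈ mats V φ ψ := by
  classical
  by_cases hA0 : A = 0
  · rw [hA0, zero_mul, zero_mul]; exact h.mats_zero Φ Ψ
  by_cases hB0 : B = 0
  · rw [hB0, mul_zero, zero_mul]; exact h.mats_zero Φ Ψ
  obtain ⟨Bi, hBi, hBBi⟩ := h.symm.mats_inv Ψ Φ hn hB hB0
  have hBiB : Bi * B = 1 := mul_eq_one_comm.1 hBBi
  by_cases hd : Bi - A = 0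
  · rw [sub_eq_zero] at hd
    rw [hd] at hBiB
    rw [hBiB, one_mul]; exact hA
  set M := h.matSpace Φ Ψ
  have hdM : Bi - A ∈ M := M.sub_mem hBi hA
  obtain ⟨A', hA', hAA'⟩ := h.mats_inv Φ Ψ hn hA hA0
  obtain ⟨D', hD', hDD'⟩ := h.mats_inv Φ Ψ hn hdM hd
  have hD'D : D' * (Bi - A) = 1 := mul_eq_one_comm.1 hDD'
  have hA'A : A' * A = 1 := mul_eq_one_comm.1 hAA'
  have hE : A * (A' + D') * (Bi - A) = Bi := by
    rw [mul_add, add_mul, mul_assoc A D', hD'D, hAA', one_mul, mul_one, sub_add_cancel]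
  have hE0 : A' + D' ≠ 0 := by
    intro e
    rw [e, mul_zero, zero_mul] at hE
    rw [← hE, zero_mul] at hBiB
    exact zero_ne_one (α := 𝔽) (congrFun (congrFun hBiB ⟨0, hn⟩) ⟨0, hn⟩ |>.trans (Matrix.one_apply_eq _))
  obtain ⟨E', hE', hEE'⟩ := h.symm.mats_inv Ψ Φ hn (h.symm.mats_add Ψ Φ hA' hD') hE0
  have hval : (A' + D') * ((Bi - A) * B * A) = 1 := by
    have h1 : (A' + D') * (Bi - A) = A' * Bi := by
      calc (A' + D') * (Bi - A) = (A' * A) * ((A' + D') * (Bi - A)) := by rw [hA'A, one_mul]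
        _ = A' * (A * (A' + D') * (Bi - A)) := by simp only [mul_assoc]
        _ = A' * Bi := by rw [hE]
    rw [← mul_assoc, ← mul_assoc, h1, mul_assoc A' Bi B, hBiB, mul_one, hA'A]
  have hu : E' = (Bi - A) * B * A := by
    calc E' = E' * ((A' + D') * ((Bi - A) * B * A)) := by rw [hval, mul_one]
      _ = _ := by rw [← mul_assoc, mul_eq_one_comm.1 hEE', one_mul]
  have : A * B * A = A - E' := by
    rw [hu, sub_mul, sub_mul, hBiB, one_mul, sub_sub_cancel]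
  rw [this]
  exact M.sub_mem hA hE'

/-- The point with coordinates `(x, y)`. -/
def point (z : (Fin n → 𝔽) × (Fin n → 𝔽)) : ↥(V ⊔ V') :=
  ⟨φ z.1 * ψ z.2, h.mem_sup.2 ⟨_, Φ.mem _, _, Ψ.mem _, rfl⟩⟩

theorem point_bijective : Function.Bijective (h.point Φ Ψ) := by
  constructor
  · rintro ⟨x, y⟩ ⟨x', y'⟩ e
    have e' : φ x * ψ y = φ x' * ψ y' := congrArg Subtype.val e
    have e2 : (φ x')⁻¹ * φ x = ψ y' * (ψ y)⁻¹ := by
      calc (φ x')⁻¹ * φ x = (φ x')⁻¹ * (φ x * ψ y) * (ψ y)⁻¹ := by group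
        _ = ψ y' * (ψ y)⁻¹ := by rw [e']; group
    have e3 := h.eq_one (mul_mem (inv_mem (Φ.mem _)) (Φ.mem _))
      (e2 ▸ mul_mem (Ψ.mem _) (inv_mem (Ψ.mem _)))
    rw [e3, eq_comm, mul_inv_eq_one] at e2
    exact Prod.ext (Φ.inj (inv_mul_eq_one.1 e3).symm) (Ψ.inj e2).symm
  · rintro ⟨w, hw⟩
    obtain ⟨v, hv, a, ha, rfl⟩ := h.mem_sup.1 hw
    obtain ⟨x, rfl⟩ := Φ.surj v hv
    obtain ⟨y, rfl⟩ := Ψ.surj a ha
    exact ⟨(x, y), rfl⟩

/-- The action of the normalizer of `VV'` on coordinates. -/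
noncomputable def perm : ↥(Subgroup.normalizer ((V ⊔ V' : Subgroup G) : Set G)) →*
    Equiv.Perm ((Fin n → 𝔽) × (Fin n → 𝔽)) :=
  ((Equiv.ofBijective _ (h.point_bijective Φ Ψ)).symm.permCongrHom.toMonoidHom.comp
    (MulAut.toPerm ↥(V ⊔ V'))).comp (V ⊔ V').normalizerMonoidHom

theorem perm_eq {g : ↥(Subgroup.normalizer ((V ⊔ V' : Subgroup G) : Set G))}
    {z z' : (Fin n → 𝔽) × (Fin n → 𝔽)} :
    h.perm Φ Ψ g z = z' ↔ (g : G) * (φ z.1 * ψ z.2) * (g : G)⁻¹ = φ z'.1 * ψ z'.2 := by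
  show (Equiv.ofBijective _ (h.point_bijective Φ Ψ)).symm _ = z' ↔ _
  rw [Equiv.symm_apply_eq, Subtype.ext_iff]
  rfl

theorem perm_ker : (h.perm Φ Ψ).ker =
    (Subgroup.centralizer ((V ⊔ V' : Subgroup G) : Set G)).subgroupOf _ := by
  ext g
  rw [MonoidHom.mem_ker, Subgroup.mem_subgroupOf, Subgroup.mem_centralizer_iff]
  constructor
  · intro hg w hw
    obtain ⟨z, hz⟩ := (h.point_bijective Φ Ψ).2 ⟨w, hw⟩
    have := (h.perm_eq Φ Ψ (z := z)).1 (show h.perm Φ Ψ g z = z by rw [hg]; rfl)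
    rw [← show φ z.1 * ψ z.2 = w from congrArg Subtype.val hz]
    exact (mul_inv_eq_iff_eq_mul.1 this).symm
  · intro hg
    refine Equiv.ext fun z => (h.perm_eq Φ Ψ).2 ?_
    have := hg _ (h.point Φ Ψ z).2
    rw [mul_inv_eq_iff_eq_mul]
    exact this.symm

end Pair

/-- The transvections generate `SL₂` over a field. -/
theorem mem_of_transvections {F : Type*} [Field F] (T : Subgroup (Matrix.SpecialLinearGroup (Fin 2) F))
    (hu : ∀ a : F, (⟨!![1, a; 0, 1], by simp [Matrix.det_fin_two]⟩ : Matrix.SpecialLinearGroup (Fin 2) F) ∈ T)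
    (hl : ∀ a : F, (⟨!![1, 0; a, 1], by simp [Matrix.det_fin_two]⟩ : Matrix.SpecialLinearGroup (Fin 2) F) ∈ T)
    (g : Matrix.SpecialLinearGroup (Fin 2) F) : g ∈ T := by
  have hlow : ∀ g : Matrix.SpecialLinearGroup (Fin 2) F, g.val 1 0 ≠ 0 → g ∈ T := by
    intro g hg
    have hd := g.2
    rw [Matrix.det_fin_two] at hd
    have e : g.val = !![1, (g.val 0 0 - 1) / g.val 1 0; 0, 1] * !![1, 0; g.val 1 0, 1] *
        !![1, (g.val 1 1 - 1) / g.val 1 0; 0, 1] := by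
      refine Matrix.ext fun i j => ?_
      fin_cases i <;> fin_cases j <;> simp [Matrix.mul_apply, Fin.sum_univ_two] <;> field_simp
      all_goals first | linear_combination hd | linear_combination (-1 : F) * hd | ring1
    have hm := mul_mem (mul_mem (hu ((g.val 0 0 - 1) / g.val 1 0)) (hl (g.val 1 0)))
      (hu ((g.val 1 1 - 1) / g.val 1 0))
    have h2 : ∀ x y z : Matrix.SpecialLinearGroup (Fin 2) F, g.val = x.val * y.val * z.val →
        x * y * z ∈ T → g ∈ T := fun x y z h hT => by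
      have heq : x * y * z = g := Subtype.ext h.symm
      exact heq ▸ hT
    exact h2 _ _ _ (by exact e) hm
  by_cases hg : g.val 1 0 = 0
  · have hd := g.2
    rw [Matrix.det_fin_two, hg, mul_zero, sub_zero] at hd
    let L : Matrix.SpecialLinearGroup (Fin 2) F := ⟨!![1, 0; 1, 1], by simp [Matrix.det_fin_two]⟩
    rw [show g = L⁻¹ * (L * g) by group]
    refine mul_mem (inv_mem (hl 1)) (hlow _ ?_)
    rw [Matrix.SpecialLinearGroup.coe_mul]
    simp [L, Matrix.mul_apply, Fin.sum_univ_two, hg]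
    exact left_ne_zero_of_mul_eq_one hd
  · exact hlow g hg

/-- The linear action of a `2 × 2` matrix over a ring of matrices. -/
def linAct (F : Subring (Matrix (Fin n) (Fin n) (ZMod 2))) (M : Matrix (Fin 2) (Fin 2) F)
    (z : (Fin n → 𝔽) × (Fin n → 𝔽)) : (Fin n → 𝔽) × (Fin n → 𝔽) :=
  ((M 0 0).val *ᵥ z.1 + (M 0 1).val *ᵥ z.2, (M 1 0).val *ᵥ z.1 + (M 1 1).val *ᵥ z.2)

theorem linAct_one (F : Subring (Matrix (Fin n) (Fin n) (ZMod 2))) (z : (Fin n → 𝔽) × (Fin n → 𝔽)) :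
    linAct F 1 z = z := by simp [linAct]

theorem linAct_mul (F : Subring (Matrix (Fin n) (Fin n) (ZMod 2))) (M N : Matrix (Fin 2) (Fin 2) F)
    (z : (Fin n → 𝔽) × (Fin n → 𝔽)) : linAct F (M * N) z = linAct F M (linAct F N z) := by
  simp only [linAct, Matrix.mul_apply, Fin.sum_univ_two, Subring.coe_add, Subring.coe_mul,
    Matrix.add_mulVec, Matrix.mulVec_add, Matrix.mulVec_mulVec]
  ext <;> simp <;> abel

namespace Pair

variable (h : Pair V V')
include h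

omit h in
theorem exists_frame (S : Setting V) : ∃ (n : ℕ) (φ : (Fin n → 𝔽) → G), Frame V n φ := by
  letI : CommGroup V := { (inferInstance : Group V) with mul_comm := fun a b => Subtype.ext (S.comm a.2 b.2) }
  letI : Module 𝔽 (Additive V) := AddCommGroup.zmodModule fun x => by
    rw [two_nsmul]; exact congrArg Additive.ofMul (Subtype.ext (S.elem _ (Additive.toMul x).2) :
      Additive.toMul x * Additive.toMul x = 1)
  let e := (Module.finBasis 𝔽 (Additive V)).equivFun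
  exact ⟨_, fun x => ((Additive.toMul (e.symm x) : V) : G),
    ⟨fun x y => by rw [map_add]; rfl,
      fun x y hxy => e.symm.injective (Additive.toMul.injective (Subtype.ext hxy)),
      fun x => (Additive.toMul (e.symm x)).2,
      fun v hv => ⟨e (Additive.ofMul ⟨v, hv⟩), by rw [e.symm_apply_apply]; rfl⟩⟩⟩

theorem exists_frames : ∃ (n : ℕ) (φ ψ : (Fin n → 𝔽) → G), Frame V n φ ∧ Frame V' n ψ ∧ 1 ≤ n ∧
    (1 : Matrix (Fin n) (Fin n) 𝔽) ∈ mats V φ ψ := by
  classical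
  obtain ⟨n, φ, Φ⟩ := exists_frame h.setting
  obtain ⟨m, hm, hU⟩ := h.exists_partner
  obtain ⟨g, hg⟩ := h.conj
  obtain ⟨v, hv, hv1⟩ : ∃ v ∈ V, v ≠ 1 := by
    by_contra hc
    push_neg at hc
    refine h.ne ?_
    subst hg
    ext w
    rw [mem_cj]
    refine ⟨fun hw => ?_, fun hw => ?_⟩
    · have := hc _ hw
      rw [mul_assoc, inv_mul_eq_one, eq_comm, mul_eq_right] at this
      rw [this]; exact one_mem V
    · rw [hc _ hw]; simp
  have hn : 1 ≤ n := by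
    rcases Nat.eq_zero_or_pos n with rfl | hn
    · obtain ⟨x, rfl⟩ := Φ.surj v hv
      exact absurd (by rw [show x = 0 from Subsingleton.elim _ _, Φ.map_zero]) hv1
    · exact hn
  obtain ⟨b, hb, hb1⟩ : ∃ b ∈ cj V' m, b ≠ 1 :=
    ⟨m * (g * v * g⁻¹) * m⁻¹, conj_mem_cj m (hg ▸ conj_mem_cj g hv), by simpa using hv1⟩
  choose ψ hψ using fun x => (h.exists_commutator hm hU).2 b hb hb1 (φ x) (Φ.mem x)
  have hbP := (h.conj_pair hm).le_nP hb
  have S := h.setting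
  have hinj : ∀ a a', a ∈ V' → a' ∈ V' → ⁅b, a⁆ = ⁅b, a'⁆ → a = a' := by
    intro a a' ha ha' e
    by_contra hne
    have hne' : a'⁻¹ * a ≠ 1 := fun e2 => hne (inv_mul_eq_one.1 e2).symm
    refine hU _ (mul_mem (inv_mem ha') ha) hne' b hb hb1 ?_
    refine commutatorElement_eq_one_iff_mul_comm.1 ?_
    have h1 := S.commutator_mul_left (y := a'⁻¹ * a) (z := b) (h.le_nP ha')
      (S.commutator_mem (h.le_nP (mul_mem (inv_mem ha') ha)) hbP)
    rw [mul_inv_cancel_left, S.commutator_comm (h.le_nP ha) hbP, e,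
      S.commutator_comm hbP (h.le_nP ha')] at h1
    exact right_eq_mul.1 h1
  refine ⟨n, φ, ψ, Φ, ⟨fun x y => ?_, fun x y e => Φ.inj ?_, fun x => (hψ x).1, fun a ha => ?_⟩, hn,
    b, hbP, fun y => by rw [Matrix.one_mulVec]; exact (hψ y).2⟩
  · refine hinj _ _ (hψ _).1 (mul_mem (hψ x).1 (hψ y).1) ?_
    rw [(hψ _).2, Φ.map_add, S.commutator_comm hbP (mul_mem (h.le_nP (hψ x).1) (h.le_nP (hψ y).1)),
      S.commutator_mul_left (h.le_nP (hψ x).1) (S.commutator_mem (h.le_nP (hψ y).1) hbP),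
      S.commutator_comm (h.le_nP (hψ x).1) hbP, S.commutator_comm (h.le_nP (hψ y).1) hbP,
      (hψ x).2, (hψ y).2]
    exact S.comm (Φ.mem x) (Φ.mem y)
  · rw [← (hψ x).2, ← (hψ y).2, e]
  · obtain ⟨x, hx⟩ := Φ.surj _ (S.commutator_mem hbP (h.le_nP ha))
    exact ⟨x, hinj _ _ (hψ x).1 ha ((hψ x).2.trans hx)⟩

theorem nP_normalizes {p : G} (hp : p ∈ nP V) :
    p ∈ Subgroup.normalizer ((V ⊔ V' : Subgroup G) : Set G) := by
  have key : ∀ p ∈ nP V, ∀ w ∈ V ⊔ V', p * w * p⁻¹ ∈ V ⊔ V' := by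
    intro p hp w hw
    obtain ⟨v, hv, a, ha, rfl⟩ := h.mem_sup.1 hw
    rw [show p * (v * a) * p⁻¹ = (p * v * p⁻¹) * (p * a * p⁻¹) by group,
      show p * v * p⁻¹ = v by rw [← h.setting.central hv hp, mul_inv_cancel_right]]
    exact mul_mem (Subgroup.mem_sup_left hv) (h.cj_le_sup hp (conj_mem_cj p ha))
  refine Subgroup.mem_normalizer_iff.2 fun w => ⟨key p hp w, fun hw => ?_⟩
  have := key p⁻¹ (inv_mem hp) _ hw
  simpa [mul_assoc] using this

theorem sup_nP_le : nP V ⊔ nP V' ≤ Subgroup.normalizer ((V ⊔ V' : Subgroup G) : Set G) :=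
  sup_le (fun _ hp => h.nP_normalizes hp) fun r hr => by
    rw [sup_comm]; exact h.symm.nP_normalizes hr

theorem main :
    (∀ hN : ((Subgroup.centralizer ((V ⊔ V' : Subgroup G) : Set G)).subgroupOf (nP V ⊔ nP V')).Normal,
      ∃ (F : Type) (_ : Field F) (_ : Fintype F), Fintype.card F = Nat.card V ∧
        Nonempty ((↥(nP V ⊔ nP V') ⧸
            (Subgroup.centralizer ((V ⊔ V' : Subgroup G) : Set G)).subgroupOf (nP V ⊔ nP V')) ≃*
          Matrix.SpecialLinearGroup (Fin 2) F)) ∧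
      ∀ v ∈ V, ∀ u ∈ V, v ≠ 1 → u ≠ 1 →
        ∃ k ∈ Subgroup.normalizer (V : Set G), k * v * k⁻¹ = u := by
  classical
  obtain ⟨n, φ, ψ, Φ, Ψ, hn, h1⟩ := h.exists_frames
  haveI : Nonempty (Fin n) := Fin.pos_iff_nonempty.1 hn
  set A := h.matSpace Φ Ψ
  have hBA : ∀ B ∈ mats V' ψ φ, B ∈ A := fun B hB => by
    have := h.hua Φ Ψ hn h1 hB
    rwa [one_mul, mul_one] at this
  have hAB : ∀ B ∈ A, B ∈ mats V' ψ φ := by
    have h1' : (1 : Matrix (Fin n) (Fin n) 𝔽) ∈ mats V' ψ φ := by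
      obtain ⟨B, hB, e⟩ := h.mats_inv Φ Ψ hn h1 (fun e => zero_ne_one (α := 𝔽)
        ((congrFun (congrFun e ⟨0, hn⟩) ⟨0, hn⟩).symm.trans (Matrix.one_apply_eq _)))
      rw [one_mul] at e
      exact e ▸ hB
    intro B hB
    have := h.symm.hua Ψ Φ hn h1' hB
    rwa [one_mul, mul_one] at this
  have hU : ∀ x ∈ A, ∀ y ∈ A, x * y * x ∈ A := fun x hx y hy => h.hua Φ Ψ hn hx (hAB y hy)
  have hcomm := commute_of_jordan A (Module.finBasisOfFinrankEq 𝔽 A (h.finrank_matSpace Φ Ψ hn)) h1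
    (fun x hx hx0 => h.mats_det Φ Ψ hx hx0) hU
  have hzero : ∀ x ∈ A, x * x = 0 → x = 0 := fun x hx hxx => by
    by_contra h0
    have := congrArg Matrix.det hxx
    rw [Matrix.det_mul, Matrix.det_zero] at this
    exact h.mats_det Φ Ψ hx h0 (mul_self_eq_zero.1 this)
  have hsq : ∀ x ∈ A, x * x ∈ A := fun x hx => by
    have := hU x hx 1 h1; rwa [mul_one] at this
  have hadd : ∀ x : Matrix (Fin n) (Fin n) 𝔽, x + x = 0 := fun x => by
    ext i j; exact CharTwo.add_self_eq_zero _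
  have hmul : ∀ x ∈ A, ∀ y ∈ A, x * y ∈ A := by
    intro x hx y hy
    let f : A → A := fun z => ⟨_, hsq z z.2⟩
    have hf : Function.Injective f := by
      rintro ⟨a, ha⟩ ⟨b, hb⟩ e
      have e' : a * a = b * b := congrArg Subtype.val e
      have hz := hzero _ (A.add_mem ha hb) (by
        rw [add_mul, mul_add, mul_add, e', hcomm a ha b hb,
          show b * b + b * a + (b * a + b * b) = (b * b + b * b) + (b * a + b * a) by abel,
          hadd, hadd, add_zero])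
      exact Subtype.ext ((eq_neg_of_add_eq_zero_left hz).trans (eq_neg_of_add_eq_zero_left (hadd b)).symm)
    obtain ⟨⟨c, hc⟩, e⟩ := (Finite.injective_iff_surjective.1 hf) ⟨x, hx⟩
    rw [← show c * c = x from congrArg Subtype.val e, mul_assoc, hcomm c hc y hy, ← mul_assoc]
    exact hU c hc y hy
  let R : Subring (Matrix (Fin n) (Fin n) 𝔽) :=
    { carrier := A
      mul_mem' := fun hx hy => hmul _ hx _ hy
      one_mem' := h1
      add_mem' := A.add_mem
      zero_mem' := A.zero_mem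
      neg_mem' := fun hx => A.neg_mem hx }
  letI : CommRing R :=
    { (inferInstance : Ring R) with mul_comm := fun x y => Subtype.ext (hcomm _ x.2 _ y.2) }
  haveI : Nontrivial R := ⟨⟨0, 1, fun e => zero_ne_one (α := 𝔽)
    ((congrFun (congrFun (congrArg Subtype.val e) ⟨0, hn⟩) ⟨0, hn⟩).trans (Matrix.one_apply_eq _))⟩⟩
  haveI : IsDomain R := by
    have : NoZeroDivisors R := ⟨fun {x y} hxy => by
      by_contra hc
      push_neg at hc
      have := congrArg (fun z : R => (z : Matrix (Fin n) (Fin n) 𝔽).det) hxy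
      simp only [Subring.coe_mul, Subring.coe_zero, Matrix.det_mul,
        Matrix.det_zero] at this
      exact mul_ne_zero (h.mats_det Φ Ψ x.2 fun e => hc.1 (Subtype.ext e))
        (h.mats_det Φ Ψ y.2 fun e => hc.2 (Subtype.ext e)) this⟩
    exact NoZeroDivisors.to_isDomain R
  letI : Fintype R := Fintype.ofFinite R
  letI : Field R := Fintype.fieldOfDomain R
  have hcard : Fintype.card R = Nat.card V := by
    rw [← Nat.card_eq_fintype_card]
    calc Nat.card R = Nat.card A := rfl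
      _ = 2 ^ n := by
          rw [Module.natCard_eq_pow_finrank (K := 𝔽), h.finrank_matSpace Φ Ψ hn, Nat.card_zmod]
      _ = Nat.card (Fin n → 𝔽) := by simp [Nat.card_fun]
      _ = Nat.card V := Nat.card_congr (Equiv.ofBijective (fun x => (⟨φ x, Φ.mem x⟩ : V))
          ⟨fun x y e => Φ.inj (congrArg Subtype.val e),
            fun v => (Φ.surj v v.2).imp fun x hx => Subtype.ext hx⟩)
  -- the representation of `SL₂`
  let σ : Matrix.SpecialLinearGroup (Fin 2) R →* Equiv.Perm ((Fin n → 𝔽) × (Fin n → 𝔽)) :=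
    { toFun := fun g =>
        { toFun := linAct R g.val
          invFun := linAct R (g⁻¹).val
          left_inv := fun z => by
            rw [← linAct_mul, ← Matrix.SpecialLinearGroup.coe_mul, inv_mul_cancel]; exact linAct_one R z
          right_inv := fun z => by
            rw [← linAct_mul, ← Matrix.SpecialLinearGroup.coe_mul, mul_inv_cancel]; exact linAct_one R z }
      map_one' := Equiv.ext (linAct_one R)
      map_mul' := fun g g' => Equiv.ext fun z => linAct_mul R g.val g'.val z }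
  have hσ : Function.Injective σ := by
    intro g g' e
    have key : ∀ z, linAct R g.val z = linAct R g'.val z := fun z => Equiv.congr_fun e z
    refine Subtype.ext (Matrix.ext fun i j => Subtype.ext (Matrix.ext_of_mulVec_single fun l => ?_))
    have k1 := key (Pi.single l 1, 0)
    have k2 := key (0, Pi.single l 1)
    simp only [linAct, Matrix.mulVec_zero, add_zero, zero_add, Prod.mk.injEq] at k1 k2
    fin_cases i <;> fin_cases j
    exacts [k1.1, k2.1, k1.2, k2.2]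
  let upper : R → Matrix.SpecialLinearGroup (Fin 2) R := fun a =>
    ⟨!![1, a; 0, 1], by simp [Matrix.det_fin_two]⟩
  let lower : R → Matrix.SpecialLinearGroup (Fin 2) R := fun a =>
    ⟨!![1, 0; a, 1], by simp [Matrix.det_fin_two]⟩
  set H := nP V ⊔ nP V' with hH
  let ρ : ↥H →* Equiv.Perm ((Fin n → 𝔽) × (Fin n → 𝔽)) :=
    (h.perm Φ Ψ).comp (Subgroup.inclusion h.sup_nP_le)
  have hP : ∀ (p : G) (hp : p ∈ nP V) (a : R), (∀ y, ⁅p, ψ y⁆ = φ (a.val *ᵥ y)) →
      ρ ⟨p, Subgroup.mem_sup_left hp⟩ = σ (upper a) := by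
    intro p hp a ha
    refine Equiv.ext fun z => (h.perm_eq Φ Ψ).2 ?_
    show p * (φ z.1 * ψ z.2) * p⁻¹ = _
    have e : linAct R (upper a).val z = (z.1 + a.val *ᵥ z.2, z.2) := by simp [linAct, upper]
    show _ = φ (linAct R (upper a).val z).1 * ψ (linAct R (upper a).val z).2
    rw [e, Φ.map_add]
    calc p * (φ z.1 * ψ z.2) * p⁻¹ = (p * φ z.1 * p⁻¹) * (⁅p, ψ z.2⁆ * ψ z.2) := by
          rw [commutatorElement_def]; group
      _ = φ z.1 * φ (a.val *ᵥ z.2) * ψ z.2 := by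
          rw [ha, ← h.setting.central (Φ.mem z.1) hp, mul_inv_cancel_right, mul_assoc]
  have hP' : ∀ (r : G) (hr : r ∈ nP V') (a : R), (∀ x, ⁅r, φ x⁆ = ψ (a.val *ᵥ x)) →
      ρ ⟨r, Subgroup.mem_sup_right hr⟩ = σ (lower a) := by
    intro r hr a ha
    refine Equiv.ext fun z => (h.perm_eq Φ Ψ).2 ?_
    show r * (φ z.1 * ψ z.2) * r⁻¹ = _
    have e : linAct R (lower a).val z = (z.1, a.val *ᵥ z.1 + z.2) := by simp [linAct, lower]
    show _ = φ (linAct R (lower a).val z).1 * ψ (linAct R (lower a).val z).2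
    rw [e, Ψ.map_add]
    calc r * (φ z.1 * ψ z.2) * r⁻¹ = (⁅r, φ z.1⁆ * φ z.1) * (r * ψ z.2 * r⁻¹) := by
          rw [commutatorElement_def]; group
      _ = φ z.1 * (ψ (a.val *ᵥ z.1) * ψ z.2) := by
          rw [ha, ← h.setting'.central (Ψ.mem z.2) hr, mul_inv_cancel_right,
            ← h.comm (Φ.mem z.1) (Ψ.mem _), mul_assoc]
  have hrange : ρ.range = σ.range := by
    refine le_antisymm ?_ ?_
    · have key : H ≤ (σ.range.comap ρ).map H.subtype := by
        refine sup_le (fun p hp => ?_) fun r hr => ?_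
        · obtain ⟨a, ha⟩ := h.exists_mat Φ Ψ hp
          exact ⟨⟨p, Subgroup.mem_sup_left hp⟩, ⟨upper ⟨a, p, hp, ha⟩, (hP p hp _ ha).symm⟩, rfl⟩
        · obtain ⟨a, ha⟩ := h.symm.exists_mat Ψ Φ hr
          exact ⟨⟨r, Subgroup.mem_sup_right hr⟩, ⟨lower ⟨a, hBA a ⟨r, hr, ha⟩⟩, (hP' r hr _ ha).symm⟩, rfl⟩
      rintro _ ⟨x, rfl⟩
      obtain ⟨x', hx', e⟩ := key x.2
      rw [← show x' = x from Subtype.ext e]
      exact hx'
    · have hu : ∀ a, σ (upper a) ∈ ρ.range := fun a => by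
        obtain ⟨p, hp, ha⟩ := (show a.val ∈ mats V φ ψ from a.2)
        exact ⟨_, hP p hp a ha⟩
      have hl : ∀ a, σ (lower a) ∈ ρ.range := fun a => by
        obtain ⟨r, hr, ha⟩ := hAB a.val a.2
        exact ⟨_, hP' r hr a ha⟩
      rintro _ ⟨g, rfl⟩
      exact mem_of_transvections ((ρ.range).comap σ) hu hl g
  refine ⟨fun hN => ⟨R, inferInstance, inferInstance, hcard, ⟨?_⟩⟩, ?_⟩
  · have hker : ρ.ker = (Subgroup.centralizer ((V ⊔ V' : Subgroup G) : Set G)).subgroupOf H := by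
      ext x
      rw [MonoidHom.mem_ker, Subgroup.mem_subgroupOf]
      exact SetLike.ext_iff.1 (h.perm_ker Φ Ψ) (Subgroup.inclusion h.sup_nP_le x)
    exact ((QuotientGroup.quotientMulEquivOfEq hker.symm).trans
      (QuotientGroup.quotientKerEquivRange ρ)).trans
        ((MulEquiv.subgroupCongr hrange).trans (MonoidHom.ofInjective hσ).symm)
  · intro v hv u hu hv1 hu1
    obtain ⟨x, rfl⟩ := Φ.surj v hv
    obtain ⟨x', rfl⟩ := Φ.surj u hu
    obtain ⟨a, ha, hax⟩ := h.mats_eval Φ Ψ (fun e => hv1 (Φ.eq_one.2 e)) x'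
    let a' : R := ⟨a, ha⟩
    have ha0 : a' ≠ 0 := fun e => hu1 (Φ.eq_one.2 (by
      rw [← hax, show a = 0 from congrArg Subtype.val e, Matrix.zero_mulVec]))
    let d : Matrix.SpecialLinearGroup (Fin 2) R :=
      ⟨!![a', 0; 0, a'⁻¹], by simp [Matrix.det_fin_two, ha0]⟩
    obtain ⟨k, hk⟩ : σ d ∈ ρ.range := hrange ▸ ⟨d, rfl⟩
    have hact : ∀ y, (k : G) * φ y * (k : G)⁻¹ = φ (a *ᵥ y) := by
      intro y
      have hz : h.perm Φ Ψ (Subgroup.inclusion h.sup_nP_le k) (y, 0) = (a *ᵥ y, 0) := by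
        show ρ k (y, 0) = _
        rw [hk]
        show linAct R d.val (y, 0) = _
        simp [linAct, d, a']
      have := (h.perm_eq Φ Ψ).1 hz
      simpa [Ψ.map_zero] using this
    refine ⟨k, cj_eq_self_iff.1 (Subgroup.eq_of_le_of_card_ge ?_ (card_cj V _).ge), by rw [hact, hax]⟩
    rintro _ ⟨w, hw, rfl⟩
    obtain ⟨y, rfl⟩ := Φ.surj w hw
    show (k : G) * φ y * (k : G)⁻¹ ∈ V
    rw [hact]; exact Φ.mem _

end Pair

end Cfsg.Agent.H76.TISpread
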