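import Mathlib
import Cfsg.Agent.H76.TISpread.Spread
import Cfsg.Agent.H19.Frattini

/-!
`O₂(M)` is special with centre `V`.
-/

set_option autoImplicit false

open scoped commutatorElement

namespace Cfsg.Agent.H76.TISpread

variable {G : Type*} [Group G] [Finite G] {V V' : Subgroup G}

namespace Pair

variable (h : Pair V V')
include h

theorem nP_eq_nQ : nP V = nQ V := by
  classical
  haveI : Fact (Nat.Prime 2) := ⟨Nat.prime_two⟩
  refine le_antisymm inf_le_left fun q hq => mem_nP.2 ⟨hq, ?_⟩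
  haveI : Group.IsNilpotent (nQ V) := (H72.pCoreOf_isPGroup 2 _).isNilpotent
  obtain ⟨z, hz, hz1, hzc⟩ : ∃ z ∈ V, z ≠ 1 ∧ ∀ y ∈ nQ V, z * y = y * z := by
    by_contra hcon
    push_neg at hcon
    have key : ∀ k, ∀ y : nQ V, y ∈ Subgroup.upperCentralSeries (nQ V) k → (y : G) ∈ V → (y : G) = 1 := by
      intro k
      induction k with
      | zero =>
        intro y hy _
        rw [Subgroup.upperCentralSeries_zero, Subgroup.mem_bot] at hy
        rw [hy]; rfl
      | succ k ih =>
        intro y hy hyV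
        by_contra hy1
        obtain ⟨r, hr, hne⟩ := hcon _ hyV hy1
        refine hne ?_
        have h1 := (Subgroup.mem_upperCentralSeries_succ_iff).1 hy ⟨r, hr⟩
        have h2 := ih _ h1 (by
          have h3 := (Subgroup.mem_normalizer_iff.1 (nQ_le V hr) (y : G)⁻¹).1 (inv_mem hyV)
          have h4 := mul_mem hyV h3
          simpa [commutatorElement_def, mul_assoc] using h4)
        exact commutatorElement_eq_one_iff_mul_comm.1 (by simpa [commutatorElement_def] using h2)
    obtain ⟨k, hk⟩ := (inferInstance : Group.IsNilpotent (nQ V)).nilpotent'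
    refine h.ne ?_
    have hbot : ∀ v ∈ V, v = 1 := fun v hv =>
      key k ⟨v, h.setting.le_nQ hv⟩ (hk ▸ Subgroup.mem_top _) hv
    obtain ⟨g, rfl⟩ := h.conj
    ext w
    rw [mem_cj]
    refine ⟨fun hw => ?_, fun hw => by rw [hbot _ hw]; simp⟩
    have := hbot _ hw
    rw [mul_assoc, inv_mul_eq_one, eq_comm, mul_eq_right] at this
    rw [this]; exact one_mem V
  intro v hv
  rcases eq_or_ne v 1 with rfl | hv1
  · simp
  obtain ⟨k, hk, hkz⟩ := h.main.2 z hz v hv hz1 hv1
  have hq' := conj_nQ (inv_mem hk) hq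
  rw [inv_inv] at hq'
  rw [← hkz]
  calc k * z * k⁻¹ * q = k * (z * (k⁻¹ * q * k)) * k⁻¹ := by group
    _ = k * ((k⁻¹ * q * k) * z) * k⁻¹ := by rw [hzc _ hq']
    _ = q * (k * z * k⁻¹) := by group

theorem exists_nontrivial : ∃ a ∈ V', a ≠ 1 := by
  by_contra hc
  push_neg at hc
  refine h.ne (Subgroup.eq_of_le_of_card_ge (fun a ha => by rw [hc a ha]; exact one_mem V) ?_)
  exact h.card_eq.ge

theorem commutator_eq : (commutator (nQ V)).map (nQ V).subtype = V := by
  refine le_antisymm ?_ fun v hv => ?_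
  · rw [Subgroup.map_le_iff_le_comap, commutator_def, Subgroup.commutator_le]
    intro a _ b _
    have ha : (a : G) ∈ nP V := h.nP_eq_nQ.symm ▸ a.2
    have hb : (b : G) ∈ nP V := h.nP_eq_nQ.symm ▸ b.2
    rw [Subgroup.mem_comap]
    simpa [commutatorElement_def] using h.setting.commutator_mem ha hb
  · obtain ⟨a, ha, ha1⟩ := h.exists_nontrivial
    obtain ⟨p, hp, he⟩ := h.exists_conj ha ha1 hv
    refine ⟨⁅(⟨p, (mem_nP.1 hp).1⟩ : nQ V), ⟨a, h.le ha⟩⁆, ?_, ?_⟩
    · exact Subgroup.commutator_mem_commutator (Subgroup.mem_top _) (Subgroup.mem_top _)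
    · simp [commutatorElement_def, he]

theorem center_eq : (Subgroup.center (nQ V)).map (nQ V).subtype = V := by
  refine le_antisymm ?_ fun v hv => ?_
  · rintro _ ⟨x, hx, rfl⟩
    refine h.setting.mem_of_commute (h.nP_eq_nQ.symm ▸ x.2) fun p hp => ?_
    exact (congrArg Subtype.val (Subgroup.mem_center_iff.1 hx ⟨p, (mem_nP.1 hp).1⟩)).symm
  · refine ⟨⟨v, h.setting.le_nQ hv⟩, Subgroup.mem_center_iff.2 fun y => Subtype.ext ?_, rfl⟩
    exact (h.setting.central hv (h.nP_eq_nQ.symm ▸ y.2)).symm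

theorem frattini_eq : (frattini (nQ V)).map (nQ V).subtype = V := by
  haveI : Fact (Nat.Prime 2) := ⟨Nat.prime_two⟩
  have hp : IsPGroup 2 (nQ V) := H72.pCoreOf_isPGroup 2 _
  refine le_antisymm ?_ ?_
  · rw [Subgroup.map_le_iff_le_comap]
    refine H19.frattini_le_of_commutator_pow (p := 2) _ ?_ fun x => ?_
    · rw [← Subgroup.map_le_iff_le_comap]; exact h.commutator_eq.le
    · rw [Subgroup.mem_comap, map_pow, sq]
      exact h.setting.sq_mem (h.nP_eq_nQ.symm ▸ x.2)
  · conv_lhs => rw [← h.commutator_eq]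
    exact Subgroup.map_mono (H19.commutator_pow_mem_frattini hp).1

end Pair

end Cfsg.Agent.H76.TISpread
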